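import Cfsg.Agent.Ree.Aut
import Cfsg.Agent.Ree.Arith
import Cfsg.Agent.SuzukiAut.Out

/-!
Every automorphism of the twisted group of type G₂ is an inner automorphism times a field
automorphism.
-/

set_option autoImplicit false

open scoped MatrixGroups Pointwise

namespace CfsgLib.Ree

open Cfsg.Lie CfsgLib.Chevalley

variable {K : Type*} [Field K] [CharP K 3] {m : ℕ} [Fintype K]

local notation "G¹" => twistedG2 K (3 ^ m)
local notation "q₀" => 3 ^ (2 * m + 1)

/-- The multiplier of the torus on the first parameter. -/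
noncomputable def chiHom (K : Type*) [Field K] [CharP K 3] (m : ℕ) : Kˣ →* Kˣ where
  toFun w := Units.map (fr K m : K →* K) w ^ 2 / w ^ 3
  map_one' := by simp
  map_mul' a b := by rw [map_mul, mul_pow, mul_pow, mul_div_mul_comm]

/-- The multiplier of the torus on the second parameter. -/
noncomputable def betaHom (K : Type*) [Field K] [CharP K 3] (m : ℕ) : Kˣ →* Kˣ where
  toFun w := w ^ 3 / Units.map (fr K m : K →* K) w
  map_one' := by simp
  map_mul' a b := by rw [map_mul, mul_pow, mul_div_mul_comm]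

omit [Fintype K] in
theorem chiHom_val (w : Kˣ) : ((chiHom K m w : Kˣ) : K) = fr K m w ^ 2 / (w : K) ^ 3 := by
  simp [chiHom, Units.val_div_eq_div_val]

omit [Fintype K] in
theorem betaHom_val (w : Kˣ) : ((betaHom K m w : Kˣ) : K) = (w : K) ^ 3 / fr K m w := by
  simp [betaHom, Units.val_div_eq_div_val]

variable (hK : Fintype.card K = 3 ^ (2 * m + 1))
include hK

theorem chi_bijective : Function.Bijective (chiHom K m) := by
  refine Finite.injective_iff_bijective.mp ((injective_iff_map_eq_one _).mpr fun w h => ?_)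
  have := congrArg Units.val h
  rw [chiHom_val, Units.val_one] at this
  exact Units.ext ((eA_coeff_eq_one_iff hK w.ne_zero).mp this)

theorem beta_eq_one {w : Kˣ} : betaHom K m w = 1 ↔ w = 1 ∨ w = -1 := by
  rw [Units.ext_iff, betaHom_val, Units.val_one, eB_coeff_eq_one_iff hK w.ne_zero]
  constructor
  · rintro (h | h)
    · exact Or.inl (Units.ext h)
    · exact Or.inr (Units.ext (by simpa using h))
  · rintro (rfl | rfl) <;> simp

/-- The multipliers on the second parameter are exactly the squares. -/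
theorem exists_beta_eq (y : Kˣ) : ∃ w, betaHom K m w = y ^ 2 := by
  set sq : Kˣ →* Kˣ := powMonoidHom 2
  have hker : (betaHom K m).ker = sq.ker := by
    ext w
    rw [MonoidHom.mem_ker, beta_eq_one hK, MonoidHom.mem_ker]
    show _ ↔ w ^ 2 = 1
    rw [Units.ext_iff, Units.ext_iff, Units.ext_iff, Units.val_pow_eq_pow_val, Units.val_one,
      Units.val_neg, Units.val_one, sq_eq_one_iff]
  have hle : (betaHom K m).range ≤ sq.range := by
    rintro _ ⟨w, rfl⟩
    refine ⟨w / w ^ ((3 ^ (m + 1) - 1) / 2), ?_⟩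
    show (w / _) ^ 2 = w ^ 3 / Units.map (fr K m : K →* K) w
    have e : Units.map (fr K m : K →* K) w = w ^ (3 ^ (m + 1)) := Units.ext (by simp [fr_def])
    have hodd : 3 ^ (m + 1) % 2 = 1 := by rw [Nat.pow_mod]; norm_num
    obtain ⟨j, hj⟩ : ∃ j, 3 ^ (m + 1) = 2 * j + 1 := ⟨3 ^ (m + 1) / 2, by omega⟩
    rw [e, hj, show (2 * j + 1 - 1) / 2 = j by omega, div_pow, ← pow_mul, pow_succ w (2 * j),
      pow_succ w 2, mul_div_mul_right_eq_div, mul_comm j 2]
  have hcard : Nat.card ↥(betaHom K m).range = Nat.card ↥sq.range := by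
    rw [← Subgroup.index_ker, ← Subgroup.index_ker, hker]
  have := Subgroup.eq_of_le_of_card_ge hle hcard.ge
  obtain ⟨w, hw⟩ : y ^ 2 ∈ (betaHom K m).range := this ▸ ⟨y, rfl⟩
  exact ⟨w, hw⟩

omit [CharP K 3] in
theorem square_or_neg (x : Kˣ) : ∃ y, x = y ^ 2 ∨ x = -(y ^ 2) := by
  have hns := not_isSquare_neg_one hK
  by_cases hx : IsSquare (x : K)
  · obtain ⟨r, hr⟩ := hx
    have h0 : r ≠ 0 := fun h => x.ne_zero (by rw [hr, h, mul_zero])
    exact ⟨Units.mk0 r h0, Or.inl (Units.ext (by simp [hr, sq]))⟩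
  · classical
    have : IsSquare (-(x : K)) := by
      rw [← quadraticChar_one_iff_isSquare (neg_ne_zero.mpr x.ne_zero)]
      rw [show -(x : K) = -1 * x by ring, map_mul,
        quadraticChar_neg_one_iff_not_isSquare.mpr hns, quadraticChar_neg_one_iff_not_isSquare.mpr hx]
      norm_num
    obtain ⟨r, hr⟩ := this
    have h0 : r ≠ 0 := fun h => neg_ne_zero.mpr x.ne_zero (by rw [hr, h, mul_zero])
    exact ⟨Units.mk0 r h0, Or.inr (Units.ext (by simp [← hr, sq]))⟩

/-- Conjugation into the Borel subgroup. -/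
theorem mem_borel_of_conj {g s : ↥G¹} (hs : s ∈ uSub3 K m) (h1 : s ≠ 1)
    (h : g * s * g⁻¹ ∈ uSub3 K m) : (g : GL chevG2.Idx K) ∈ chevG2.borelSubgroup K :=
  (Subgroup.mem_subgroupOf.mp (ti_uSub3 hK hs h1 h)).1

theorem conj_uSub3_iff {g : ↥G¹} (hg : (g : GL chevG2.Idx K) ∈ chevG2.borelSubgroup K) (x : ↥G¹) :
    g * x * g⁻¹ ∈ uSub3 K m ↔ x ∈ uSub3 K m :=
  (Subgroup.mem_normalizer_iff.mp (borel_le_normalizer_uSub3 hg) x).symm

theorem elB_one_ne_one : (elB 1 : ↥G¹) ≠ 1 := fun h => by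
  rw [← elU_zero_zero, ← elA_zero, ← elU_A] at h
  exact one_ne_zero (elU_inj h).2.1

omit hK [Fintype K] in
theorem map_conj_mul {φ : MulAut ↥G¹} (g x : ↥G¹) : (MulAut.conj g * φ) x = g * φ x * g⁻¹ := rfl

/-- An automorphism can be adjusted to fix the unipotent subgroup and the coset of `n₀`. -/
theorem exists_adjust_aut (φ : MulAut ↥G¹) : ∃ g : ↥G¹,
    (∀ x, (MulAut.conj g * φ) x ∈ uSub3 K m ↔ x ∈ uSub3 K m) ∧
    (∃ h, (MulAut.conj g * φ) nE = elH hK h * nE) ∧
    (∀ w, ∃ w', (MulAut.conj g * φ) (elH hK w) = elH hK w') := by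
  haveI : Fact (Nat.Prime 3) := ⟨Nat.prime_three⟩
  obtain ⟨S, hS⟩ := exists_uSylow hK
  let P : Sylow 3 ↥G¹ := (S.2.map φ.toMonoidHom).toSylow
    (by rw [Subgroup.index_map_of_bijective φ.bijective]; exact S.not_dvd_index)
  obtain ⟨a, ha⟩ := MulAction.exists_smul_eq ↥G¹ P S
  set ψ := MulAut.conj a * φ with hψ
  have hψU : ∀ x, ψ x ∈ uSub3 K m ↔ x ∈ uSub3 K m := by
    intro x
    have h : (S : Subgroup ↥G¹) = ((S : Subgroup ↥G¹).map φ.toMonoidHom).map (MulAut.conj a).toMonoidHom :=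
      (congrArg (fun Q : Sylow 3 ↥G¹ => (Q : Subgroup ↥G¹)) ha).symm
    rw [Subgroup.map_map] at h
    have h' : (uSub3 K m).map ψ.toMonoidHom = uSub3 K m := by rw [← hS]; exact h.symm
    conv_lhs => rw [← h']
    exact Subgroup.mem_map_iff_mem ψ.injective
  have hψB : ∀ ψ : MulAut ↥G¹, (∀ x, ψ x ∈ uSub3 K m ↔ x ∈ uSub3 K m) → ∀ x : ↥G¹,
      ((ψ x : ↥G¹) : GL chevG2.Idx K) ∈ chevG2.borelSubgroup K ↔
        (x : GL chevG2.Idx K) ∈ chevG2.borelSubgroup K := by
    intro ψ hψU x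
    constructor
    · intro hx
      refine mem_borel_of_conj hK (elB_mem 1) (elB_one_ne_one hK) ?_
      rw [← hψU, map_mul, map_mul, map_inv, conj_uSub3_iff hK hx, hψU]
      exact elB_mem 1
    · intro hx
      refine mem_borel_of_conj hK ((hψU _).mpr (elB_mem 1))
        (fun h => elB_one_ne_one hK (ψ.injective (h.trans (map_one ψ).symm))) ?_
      rw [← map_inv, ← map_mul, ← map_mul, hψU, conj_uSub3_iff hK hx]
      exact elB_mem 1
  have hn : ¬ ((ψ nE : ↥G¹) : GL chevG2.Idx K) ∈ chevG2.borelSubgroup K :=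
    fun h => n0_not_mem_borel (K := K) ((hψB ψ hψU nE).mp h)
  rcases group_cases hK (ψ nE) with ⟨t, u, v, w, e⟩ | ⟨t, u, v, w, t', u', v', e⟩
  · exact absurd (e ▸ (chevG2.borelSubgroup K).mul_mem (uSub3_borel (elU_mem t u v)) (elH_borel hK w)) hn
  set b : ↥G¹ := elU t' u' v'
  set χ := MulAut.conj (b * a) * φ with hχ
  have hχψ : ∀ x, χ x = b * ψ x * b⁻¹ := fun x => by
    simp only [hχ, hψ, map_conj_mul]; group
  have hbB : (b : GL chevG2.Idx K) ∈ chevG2.borelSubgroup K := uSub3_borel (elU_mem t' u' v')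
  have hχU : ∀ x, χ x ∈ uSub3 K m ↔ x ∈ uSub3 K m := fun x => by
    rw [hχψ, conj_uSub3_iff hK hbB, hψU]
  set z : ↥G¹ := b * elU t u v * elH hK w with hz
  have hzn : χ nE = z * nE := by rw [hχψ, e, hz]; group
  have hzB : (z : GL chevG2.Idx K) ∈ chevG2.borelSubgroup K :=
    (chevG2.borelSubgroup K).mul_mem
      ((chevG2.borelSubgroup K).mul_mem hbB (uSub3_borel (elU_mem t u v))) (elH_borel hK w)
  have hinv : z * nE * (z * nE) = 1 := by rw [← hzn, ← map_mul, nE_mul_nE, map_one]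
  obtain ⟨h, hh⟩ := torus_of_opposite hK hzB (by
    have e' : (nE : ↥G¹) * z * nE = z⁻¹ := eq_inv_of_mul_eq_one_right (by rw [← hinv]; group)
    rw [e', Subgroup.coe_inv]
    exact (chevG2.borelSubgroup K).inv_mem hzB)
  rw [hh] at hzn
  refine ⟨b * a, hχU, ⟨h, hzn⟩, fun w => ?_⟩
  refine torus_of_opposite hK ((hψB χ hχU _).mpr (elH_borel hK w)) ?_
  obtain ⟨w', hw'⟩ := nE_conj_elH hK w
  obtain ⟨h', hh'⟩ := nE_conj_elH hK h
  have e1 : χ (elH hK w') = elH hK h * nE * χ (elH hK w) * (elH hK h * nE) := by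
    rw [← hw', map_mul, map_mul, hzn]
  have e2 : (nE : ↥G¹) * χ (elH hK w) * nE =
      (elH hK h)⁻¹ * χ (elH hK w') * (elH hK h')⁻¹ := by
    rw [e1, ← hh']
    simp only [mul_inv_rev, inv_eq_of_mul_eq_one_right (nE_mul_nE (K := K) (m := m)), mul_assoc]
    simp [← mul_assoc (nE : ↥G¹) nE, nE_mul_nE]
  rw [e2, Subgroup.coe_mul, Subgroup.coe_mul, Subgroup.coe_inv, Subgroup.coe_inv]
  exact (chevG2.borelSubgroup K).mul_mem ((chevG2.borelSubgroup K).mul_mem
    ((chevG2.borelSubgroup K).inv_mem (elH_borel hK h)) ((hψB χ hχU _).mpr (elH_borel hK w')))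
    ((chevG2.borelSubgroup K).inv_mem (elH_borel hK h'))

variable (hm : 1 ≤ m)
include hm

/-- The normal form of an automorphism. -/
theorem exists_decomposition_aut (φ : MulAut ↥G¹) :
    ∃ (g : ↥G¹) (σ : K ≃+* K), φ = MulAut.conj g * fieldAutG hK σ := by
  have hq := Q_of_card hK
  obtain ⟨g₁, hU₁, ⟨h₁, hn₁⟩, hH₁⟩ := exists_adjust_aut hK φ
  set α := MulAut.conj g₁ * φ
  choose σ hσ using hH₁
  have hσmul : ∀ a b, σ (a * b) = σ a * σ b := fun a b => elH_inj hK (by
    rw [map_mul, ← hσ, ← hσ, ← hσ, map_mul, map_mul])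
  have hσinj : Function.Injective σ := fun a b h => elH_inj hK (α.injective (by rw [hσ, hσ, h]))
  have hσ1 : σ 1 = 1 := mul_left_cancel (a := σ 1) (by rw [mul_one, ← hσmul, mul_one])
  have hσneg : σ (-1) = -1 := by
    have h2 : σ (-1) * σ (-1) = 1 := by rw [← hσmul, neg_mul_neg, one_mul, hσ1]
    have h2' : ((σ (-1) : Kˣ) : K) * (σ (-1) : Kˣ) = 1 := by rw [← Units.val_mul, h2, Units.val_one]
    rcases mul_self_eq_one_iff.mp h2' with h | h
    · exact absurd (hσinj ((Units.ext h).trans hσ1.symm)) (neg_one_ne_one_units hK)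
    · exact Units.ext h
  -- the images of the second generators
  have hB : ∀ u, ∃ u', α (elB u) = elB u' := by
    intro u
    obtain ⟨u', e⟩ := centralizer_uSub3 hK (g := α (elB u)) (by
      rw [Subgroup.mem_centralizer_singleton_iff, ← elH_neg_one hK, ← hσneg, ← hσ, ← map_mul,
        ← map_mul, elH_neg_one, invE_conj_elB hK]) ((hU₁ _).mpr (elB_mem u))
    exact ⟨u', Subtype.ext e⟩
  choose f hf using hB
  have elB_inj : ∀ {u u' : K}, (elB u : ↥G¹) = elB u' → u = u' := fun {u u'} h => by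
    rw [← elU_zero_zero, ← elU_zero_zero] at h; exact (elU_inj h).2.1
  have elC_inj : ∀ {v v' : K}, (elC v : ↥G¹) = elC v' → v = v' := fun {v v'} h => by
    have h' : (elU 0 0 v : ↥G¹) = elU 0 0 v' := by
      simpa [elU_eq, elA_zero, elB_zero] using h
    exact (elU_inj h').2.2
  have f0 : f 0 = 0 := elB_inj (by rw [← hf, elB_zero, map_one])
  have fadd : ∀ a b, f (a + b) = f a + f b := fun a b =>
    elB_inj (by rw [← hf, ← elB_add, map_mul, hf, hf, elB_add])
  have fneg : ∀ a, f (-a) = -f a := fun a =>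
    eq_neg_of_add_eq_zero_left (by rw [← fadd, neg_add_cancel, f0])
  have fscale : ∀ (w : Kˣ) u, f ((betaHom K m w : Kˣ) * u) = (betaHom K m (σ w) : Kˣ) * f u :=
    fun w u => elB_inj (by
      rw [← hf, betaHom_val, ← elH_conj_elB hK, map_mul, map_mul, map_inv, hσ, hf, elH_conj_elB,
        betaHom_val])
  have hf1 : f 1 ≠ 0 := fun h => one_ne_zero (α := K)
    (elB_inj (α.injective (by rw [hf, hf, h, f0])))
  obtain ⟨y, hy⟩ := square_or_neg hK (Units.mk0 _ hf1)
  obtain ⟨v, hv⟩ := exists_beta_eq hK y⁻¹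
  obtain ⟨ε, hε2, hεv⟩ : ∃ ε : K, (ε = 1 ∨ ε = -1) ∧ (betaHom K m v : K) * f 1 = ε := by
    have e : (betaHom K m v : K) * f 1 = ((y⁻¹ ^ 2 * Units.mk0 _ hf1 : Kˣ) : K) := by
      rw [hv, Units.val_mul, Units.val_mk0]
    rcases hy with hy | hy <;> rw [hy] at e
    · exact ⟨1, Or.inl rfl, e.trans (by rw [← mul_pow, inv_mul_cancel, one_pow, Units.val_one])⟩
    · exact ⟨-1, Or.inr rfl, e.trans (by
        rw [mul_neg, ← mul_pow, inv_mul_cancel, one_pow, Units.val_neg, Units.val_one])⟩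
  have hεε : ε * ε = 1 := by rcases hε2 with rfl | rfl <;> norm_num
  -- the field automorphism
  set g : K → K := fun u => ε * ((betaHom K m v : K) * f u) with hg
  have g1 : g 1 = 1 := by simp only [hg, hεv, hεε]
  have g0 : g 0 = 0 := by simp only [hg, f0, mul_zero]
  have gadd : ∀ a b, g (a + b) = g a + g b := fun a b => by simp only [hg, fadd]; ring
  have gneg : ∀ a, g (-a) = -g a := fun a => by simp only [hg, fneg]; ring
  have gscale : ∀ (w : Kˣ) u, g ((betaHom K m w : Kˣ) * u) = g (betaHom K m w : Kˣ) * g u := by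
    intro w u
    have hb : g (betaHom K m w : Kˣ) = (betaHom K m (σ w) : Kˣ) := by
      have := fscale w 1
      rw [mul_one] at this
      simp only [hg, this]
      linear_combination (betaHom K m (σ w) : K) * (ε * hεv + hεε)
    rw [hb]
    simp only [hg, fscale]
    ring
  have gmul : ∀ a b, g (a * b) = g a * g b := by
    intro a b
    rcases eq_or_ne a 0 with rfl | ha
    · rw [zero_mul, g0, zero_mul]
    obtain ⟨z, hz⟩ := square_or_neg hK (Units.mk0 a ha)
    obtain ⟨w, hw⟩ := exists_beta_eq hK z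
    rw [← hw] at hz
    rcases hz with hz | hz
    · have : a = (betaHom K m w : K) := congrArg Units.val hz
      rw [this, gscale]
    · have : a = -(betaHom K m w : K) := by simpa using congrArg Units.val hz
      rw [this, neg_mul, gneg, gscale, gneg, neg_mul]
  have ginj : Function.Injective g := by
    intro a b h
    have hε0 : ε ≠ 0 := left_ne_zero_of_mul_eq_one hεε
    exact elB_inj (α.injective (by
      rw [hf, hf, mul_left_cancel₀ (betaHom K m v).ne_zero (mul_left_cancel₀ hε0 h)]))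
  let τ : K ≃+* K :=
    { Equiv.ofBijective g (Finite.injective_iff_bijective.mp ginj) with
      map_mul' := gmul
      map_add' := gadd }
  set α₂ := MulAut.conj (elH hK v) * α with hα₂
  set χ₀ := (fieldAutG hK τ)⁻¹ * α₂ with hχ₀
  have happ : ∀ x y, α₂ x = fieldAutG hK τ y → χ₀ x = y := fun x y h => by
    rw [hχ₀, MulAut.mul_apply, h, MulAut.inv_apply_self]
  have hτε : τ ε = ε := by rcases hε2 with rfl | rfl <;> simp
  have hU₂ : ∀ x, χ₀ x ∈ uSub3 K m ↔ x ∈ uSub3 K m := by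
    intro x
    have h1 : α₂ x ∈ uSub3 K m ↔ x ∈ uSub3 K m := by
      rw [hα₂, map_conj_mul, conj_uSub3_iff hK (elH_borel hK v), hU₁]
    rw [← h1]
    conv_rhs => rw [show α₂ x = fieldAutG hK τ (χ₀ x) from ((fieldAutG hK τ).apply_symm_apply _).symm]
    constructor
    · intro h
      obtain ⟨t, u, v, e⟩ := exists_elU hK h
      rw [e, fieldAutG_elU]
      exact elU_mem _ _ _
    · intro h
      obtain ⟨t, u, v, e⟩ := exists_elU hK h
      have : χ₀ x = elU (τ.symm t) (τ.symm u) (τ.symm v) := by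
        refine (fieldAutG hK τ).injective ?_
        rw [e, fieldAutG_elU]
        simp
      rw [this]
      exact elU_mem _ _ _
  have hB₂ : ∀ u, χ₀ (elB u) = elB (ε * u) := fun u => happ _ _ (by
    rw [hα₂, map_conj_mul, hf, elH_conj_elB, fieldAutG_elB, map_mul, hτε]
    congr 1
    rw [← betaHom_val, show τ u = g u from rfl, hg]
    linear_combination -((betaHom K m v : K) * f u) * hεε)
  have hH₂ : ∀ w, ∃ w', χ₀ (elH hK w) = elH hK w' := fun w =>
    ⟨Units.map (τ.symm : K →* K) (σ w), happ _ _ (by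
      rw [hα₂, map_conj_mul, hσ, fieldAutG_elH, ← map_inv, ← map_mul, ← map_mul, mul_comm v,
        mul_inv_cancel_right]
      congr 1
      exact Units.ext (τ.apply_symm_apply _).symm)⟩
  choose s hs using hH₂
  -- the torus is fixed
  have hfix : ∀ w, χ₀ (elH hK w) = elH hK w := by
    have hsmul : ∀ a b, s (a * b) = s a * s b := fun a b => elH_inj hK (by
      rw [map_mul, ← hs, ← hs, ← hs, map_mul, map_mul])
    have hs1 : s 1 = 1 := mul_left_cancel (a := s 1) (by rw [mul_one, ← hsmul, mul_one])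
    have hsinj : Function.Injective s := fun a b h => elH_inj hK (χ₀.injective (by rw [hs, hs, h]))
    have hpm : ∀ w, s w = w ∨ s w = -w := by
      intro w
      have h := congrArg χ₀ (elH_conj_elB hK w (1 : K))
      rw [map_mul, map_mul, map_inv, hs, hB₂, hB₂, elH_conj_elB, ← betaHom_val, ← betaHom_val] at h
      have h' : betaHom K m (s w) = betaHom K m w := Units.ext
        (mul_left_cancel₀ (left_ne_zero_of_mul_eq_one hεε) (by linear_combination elB_inj h))
      have : betaHom K m (s w / w) = 1 := by rw [map_div, h', div_self']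
      rcases (beta_eq_one hK).mp this with e | e
      · exact Or.inl (div_eq_one.mp e)
      · exact Or.inr (by rw [div_eq_iff_eq_mul] at e; rw [e, neg_one_mul])
    have hsneg : s (-1) = -1 := by
      rcases hpm (-1) with h | h
      · exact h
      · rw [neg_neg] at h
        exact absurd (hsinj (h.trans hs1.symm)) (neg_one_ne_one_units hK)
    intro w
    rw [hs]
    congr 1
    obtain ⟨z, hz | hz⟩ := square_or_neg hK w <;> subst hz
    · rw [sq, hsmul]
      rcases hpm z with e | e <;> rw [e]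
      rw [neg_mul_neg]
    · rw [neg_eq_neg_one_mul, hsmul, hsneg, sq, hsmul]
      rcases hpm z with e | e <;> rw [e]
      rw [neg_mul_neg]
  -- first generators and centre
  have hA : ∀ t, ∃ c a b, χ₀ (elA t) = elU c a b := fun t => exists_elU hK ((hU₂ _).mpr (elA_mem t))
  choose G P R hG using hA
  have Gadd : ∀ a b, G (a + b) = G a + G b := by
    intro a b
    obtain ⟨t, u, z, e⟩ := exists_elU hK (mul_mem (elA_mem (m := m) a) (elA_mem (m := m) b))
    have ht : t = a + b := by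
      have := psi1_elU_mul hK a 0 0 b 0 0
      rw [elU_A, elU_A, e, psi1_elU] at this
      exact this
    subst ht
    have hzC : ∀ z, ∃ c : K × K, χ₀ (elC z) = elU 0 c.1 c.2 := fun z => by
      obtain ⟨c, x, y, e⟩ := exists_elU hK ((hU₂ _).mpr (elC_mem z))
      have h3 : (elU c x y : ↥G¹) ^ 3 = 1 := by
        rw [← e, ← map_pow, show (elC z : ↥G¹) ^ 3 = 1 from Subtype.ext (by
          show eC K m z ^ 3 = 1
          rw [eC_val]; exact x9x11_cube _ _), map_one]
      have hc : c = 0 := (eU_pow_three_iff c x y).mp (congrArg Subtype.val h3)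
      exact ⟨(x, y), by rw [e, hc]⟩
    obtain ⟨⟨x, y⟩, hxy⟩ := hzC z
    have e' := congrArg χ₀ e
    rw [map_mul, elU_eq, map_mul, map_mul, hG, hG, hG, hB₂, hxy] at e'
    have h2 := congrArg (fun x : ↥G¹ => psi1 (x : GL chevG2.Idx K)) e'
    simp only at h2
    rw [psi1_elU_mul hK, mul_assoc] at h2
    have h3 : (elB (ε * u) : ↥G¹) * elU 0 x y = elB (ε * u + x) * elC y := by
      rw [elU_eq, elA_zero, one_mul, ← mul_assoc, elB_add]
    rw [h3, elU_mul_BC, psi1_elU] at h2
    exact h2.symm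
  have Gscale : ∀ (w : Kˣ) t, G ((chiHom K m w : Kˣ) * t) = (chiHom K m w : Kˣ) * G t := by
    intro w t
    obtain ⟨a, b, e⟩ := elH_conj_elA hK w t
    have e' := congrArg χ₀ e
    rw [map_mul, map_mul, map_inv, hfix, hG] at e'
    obtain ⟨a', b', e2⟩ := elH_conj_elU hK w (G t) (P t) (R t)
    rw [e2, elU_eq (fr K m w ^ 2 / (w : K) ^ 3 * t), map_mul, map_mul, hG, hB₂] at e'
    obtain ⟨c, x, y, e3⟩ := exists_elU hK ((hU₂ _).mpr (elC_mem b))
    have hc : c = 0 := by
      have h3 : (elU c x y : ↥G¹) ^ 3 = 1 := by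
        rw [← e3, ← map_pow, show (elC b : ↥G¹) ^ 3 = 1 from Subtype.ext (by
          show eC K m b ^ 3 = 1
          rw [eC_val]; exact x9x11_cube _ _), map_one]
      exact (eU_pow_three_iff c x y).mp (congrArg Subtype.val h3)
    subst hc
    rw [e3, mul_assoc (elU _ _ _ : ↥G¹), show (elB (ε * a) : ↥G¹) * elU 0 x y =
      elB (ε * a + x) * elC y by rw [elU_eq, elA_zero, one_mul, ← mul_assoc, elB_add],
      elU_mul_BC] at e'
    rw [chiHom_val]
    exact ((elU_inj e').1).symm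
  have G0 : G 0 = 0 := by
    have := Gadd 0 0
    rw [add_zero] at this
    exact left_eq_add.mp this
  have hGc : ∀ t, G t = t * G 1 := by
    intro t
    rcases eq_or_ne t 0 with rfl | ht
    · rw [G0, zero_mul]
    obtain ⟨w, hw⟩ := (chi_bijective hK).2 (Units.mk0 t ht)
    have := Gscale w 1
    rw [mul_one, hw, Units.val_mk0] at this
    exact this
  set c := G 1
  have hc0 : c ≠ 0 := by
    intro h
    have h3 := congrArg (· ^ 3) (hG 1)
    simp only [← map_pow, elU_cube] at h3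
    rw [show G 1 = 0 from h, elA_zero, one_pow] at h3
    refine eA_cube_ne (m := m) (one_ne_zero (α := K)) ?_
    exact congrArg Subtype.val (χ₀.injective (h3.trans (map_one χ₀).symm))
  have hC : ∀ z, ∃ z', χ₀ (elC z) = elC z' := by
    intro z
    rcases eq_or_ne z 0 with rfl | hz
    · exact ⟨0, by rw [elC_zero, map_one]⟩
    obtain ⟨w, hw⟩ : ∃ w : Kˣ, fr K m w * (-1) = z :=
      ⟨Units.mk0 (th K m (-z)) ((map_ne_zero _).mpr (neg_ne_zero.mpr hz)), by
        simp [fr_th hq]⟩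
    refine ⟨fr K m w * -(fr K m c * c ^ 2), ?_⟩
    rw [← hw, ← elH_conj_elC hK, map_mul, map_mul, map_inv, hfix,
      show (-1 : K) = -(fr K m 1 * 1 ^ 2) by simp, ← elA_cube hq, map_pow, hG, elU_cube, elA_cube hq,
      elH_conj_elC]
  -- the sign and the scalar
  obtain ⟨t₀, ht0, ht1, htm⟩ := exists_generic hm hK
  have hne : fr K m t₀ - t₀ ≠ 0 := sub_ne_zero.mpr fun h =>
    ((fr_eq_self_iff hK ht0).mp h).elim ht1 htm
  obtain ⟨w₀, hw₀⟩ := (chi_bijective hK).2 (Units.mk0 c hc0)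
  have hw₀' : fr K m w₀ ^ 2 / (w₀ : K) ^ 3 = c := by rw [← chiHom_val, hw₀, Units.val_mk0]
  have hεβ : (betaHom K m w₀ : K) = ε := by
    obtain ⟨z, hz⟩ := elU_commutator hK t₀ 0 0 0 0
    rw [elU_A, elU_A] at hz
    have e := congrArg χ₀ hz
    obtain ⟨z', hz'⟩ := hC z
    rw [map_mul, map_mul, map_mul, map_mul, map_inv, map_inv, hG, hG, hB₂, hz'] at e
    obtain ⟨x, y, e1⟩ := elH_conj_elU hK w₀⁻¹ (G t₀) (P t₀) (R t₀)
    obtain ⟨x', y', e2⟩ := elH_conj_elU hK w₀⁻¹ (G 1) (P 1) (R 1)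
    have hinv : fr K m ((w₀⁻¹ : Kˣ) : K) ^ 2 / ((w₀⁻¹ : Kˣ) : K) ^ 3 = c⁻¹ := by
      rw [← chiHom_val, map_inv, hw₀, Units.val_inv_eq_inv_val, Units.val_mk0]
    rw [hinv] at e1 e2
    rw [hGc t₀] at e1
    rw [show c⁻¹ * (t₀ * c) = t₀ by field_simp] at e1
    rw [show c⁻¹ * G 1 = 1 from inv_mul_cancel₀ hc0] at e2
    obtain ⟨z'', hz''⟩ := elU_commutator hK t₀ x y x' y'
    rw [← e1, ← e2] at hz''
    set h := elH hK w₀ with hh
    rw [map_inv, ← hh, inv_inv, ← hGc t₀] at hz''
    have e3 : (h⁻¹ * elU (G t₀) (P t₀) (R t₀) * h) * (h⁻¹ * elU (G 1) (P 1) (R 1) * h) *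
        (h⁻¹ * elU (G t₀) (P t₀) (R t₀) * h)⁻¹ * (h⁻¹ * elU (G 1) (P 1) (R 1) * h)⁻¹ =
        h⁻¹ * (elU (G t₀) (P t₀) (R t₀) * elU (G 1) (P 1) (R 1) * (elU (G t₀) (P t₀) (R t₀))⁻¹ *
          (elU (G 1) (P 1) (R 1))⁻¹) * h := by group
    rw [e3, e] at hz''
    have e4 : (elB (ε * (fr K m t₀ - t₀)) : ↥G¹) * elC z' =
        elB ((betaHom K m w₀ : K) * (fr K m t₀ - t₀)) * elC (fr K m w₀ * z'') := by
      calc (elB (ε * (fr K m t₀ - t₀)) : ↥G¹) * elC z'
          = h * (h⁻¹ * (elB (ε * (fr K m t₀ - t₀)) * elC z') * h) * h⁻¹ := by group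
        _ = h * elB (fr K m t₀ - t₀) * h⁻¹ * (h * elC z'' * h⁻¹) := by rw [hz'']; group
        _ = _ := by rw [hh, elH_conj_elB, elH_conj_elC, betaHom_val]
    have e5 : ∀ u z : K, (elB u : ↥G¹) * elC z = elU 0 u z := fun u z => by
      rw [elU_eq, elA_zero, one_mul]
    rw [e5, e5] at e4
    exact (mul_right_cancel₀ hne (elU_inj e4).2.1).symm
  have hε : ε = 1 := by
    rcases hε2 with h | h
    · exact h
    · exfalso
      refine not_isSquare_neg_one hK ?_
      obtain ⟨y, hy⟩ : ∃ y : K, (betaHom K m w₀ : K) = y * y := by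
        have hodd : 3 ^ (m + 1) % 2 = 1 := by rw [Nat.pow_mod]; norm_num
        obtain ⟨j, hj⟩ : ∃ j, 3 ^ (m + 1) = 2 * j + 1 := ⟨3 ^ (m + 1) / 2, by omega⟩
        refine ⟨(w₀ : K) / (w₀ : K) ^ j, ?_⟩
        rw [betaHom_val, fr_def, hj]
        have := w₀.ne_zero
        field_simp
        ring
      exact ⟨y, by rw [← hy, hεβ, h]⟩
  have hw₀1 : w₀ = 1 ∨ w₀ = -1 :=
    (beta_eq_one hK).mp (Units.ext (by rw [hεβ, hε, Units.val_one]))
  set χ := MulAut.conj (elH hK w₀) * χ₀ with hχdef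
  have hw₀sq : w₀ * w₀ = 1 := by rcases hw₀1 with h | h <;> simp [h]
  have hχH : ∀ w, χ (elH hK w) = elH hK w := fun w => by
    rw [hχdef, map_conj_mul, hfix, ← map_inv, ← map_mul, ← map_mul, mul_comm w₀, mul_inv_cancel_right]
  have hχB : ∀ u, χ (elB u) = elB u := fun u => by
    rw [hχdef, map_conj_mul, hB₂, hε, one_mul, elH_conj_elB, ← betaHom_val, hεβ, hε, one_mul]
  have hcc : c * c = 1 := by
    have : c = (chiHom K m w₀ : Kˣ) := by rw [hw₀, Units.val_mk0]
    rw [this, ← Units.val_mul, ← map_mul, hw₀sq, map_one, Units.val_one]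
  have hχA : ∀ t, ∃ a b, χ (elA t) = elU t a b := fun t => by
    obtain ⟨a, b, e⟩ := elH_conj_elU hK w₀ (G t) (P t) (R t)
    refine ⟨a, b, ?_⟩
    rw [hχdef, map_conj_mul, hG, e, hw₀', hGc t]
    congr 1
    linear_combination t * hcc
  have hχC : ∀ z, χ (elC z) = elC z := by
    intro z
    rcases eq_or_ne z 0 with rfl | hz
    · rw [elC_zero, map_one]
    obtain ⟨w, hw⟩ : ∃ w : Kˣ, fr K m w * (-1) = z :=
      ⟨Units.mk0 (th K m (-z)) ((map_ne_zero _).mpr (neg_ne_zero.mpr hz)), by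
        simp [fr_th hq]⟩
    obtain ⟨a, b, hab⟩ := hχA 1
    rw [← hw, ← elH_conj_elC hK, map_mul, map_mul, map_inv, hχH,
      show (-1 : K) = -(fr K m 1 * 1 ^ 2) by simp, ← elA_cube hq, map_pow, hab, elU_cube]
  -- the correction on the first generators vanishes
  choose P' R' hPR using hχA
  have hP : ∀ t, P' t = 0 := by
    intro t
    set t' := fr K m ((-1 : Kˣ) : K) ^ 2 / ((-1 : Kˣ) : K) ^ 3 * t with ht'
    obtain ⟨a, b, e⟩ := elH_conj_elA hK (-1) t
    have ht : t' = -t := by simp [ht']; ring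
    obtain ⟨u₀, z₀, hs0⟩ : ∃ u z, (elA t : ↥G¹) * elU t' a b = elB u * elC z := by
      obtain ⟨x, u, z, ex⟩ := exists_elU hK (mul_mem (elA_mem (m := m) t) (elU_mem (m := m) t' a b))
      have := psi1_elU_mul hK t 0 0 t' a b
      rw [elU_A, ex, psi1_elU, ht, add_neg_cancel] at this
      subst this
      exact ⟨u, z, by rw [ex, elU_eq, elA_zero, one_mul]⟩
    set x := (elA t : ↥G¹)
    set d := (elB (P' t) : ↥G¹) * elC (R' t)
    have hd : χ x = x * d := by rw [hPR, elU_eq, mul_assoc]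
    have hy : χ (elU t' a b) = elH hK (-1) * (x * d) * (elH hK (-1))⁻¹ := by
      rw [← e, map_mul, map_mul, map_inv, hχH, hd]
    have hdd : elH hK (-1) * d * (elH hK (-1))⁻¹ =
        elB (P' t) * elC (fr K m ((-1 : Kˣ) : K) * R' t) := by
      rw [show elH hK (-1) * d * (elH hK (-1))⁻¹ = elH hK (-1) * elB (P' t) * (elH hK (-1))⁻¹ *
        (elH hK (-1) * elC (R' t) * (elH hK (-1))⁻¹) by simp only [d]; group,
        elH_conj_elB, elH_conj_elC, ← betaHom_val, (beta_eq_one hK).mpr (Or.inr rfl), Units.val_one,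
        one_mul]
    have hcomb : χ (x * elU t' a b) = x * d * (elU t' a b * (elH hK (-1) * d * (elH hK (-1))⁻¹)) := by
      rw [map_mul, hd, hy, ← e]; group
    have hxy : χ (x * elU t' a b) = x * elU t' a b := by rw [hs0, map_mul, hχB, hχC]
    rw [hxy, hdd, elU_mul_BC] at hcomb
    obtain ⟨p, r, hp⟩ : ∃ p r, d * (elU t' (a + P' t) (b + fr K m ((-1 : Kˣ) : K) * R' t) : ↥G¹) =
        elU t' p r ∧ p = a + P' t + P' t := by
      have key : ∀ u : K, ∃ z, (elB u : ↥G¹) * elA t' = elA t' * elB u * elC z := fun u => by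
        obtain ⟨a', b', h'⟩ := eA_mul_eB (m := m) t' u
        have hmem : sysG2.xG K 9 a' * sysG2.xG K 11 b' ∈ chevG2.posUnipotent K :=
          mul_mem (xG_mem_pos (by norm_num) (by norm_num) a') (xG_mem_pos (by norm_num) (by norm_num) b')
        set z : ↥G¹ := ((elB u : ↥G¹) * elA t')⁻¹ * (elA t' * elB u) with hz
        have hzv : (z : GL chevG2.Idx K) = sysG2.xG K 9 a' * sysG2.xG K 11 b' := by
          show (eB K m u * eA K m t')⁻¹ * (eA K m t' * eB K m u) = _
          rw [h', inv_mul_cancel_left]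
        obtain ⟨x', y', z', ez⟩ := exists_elU hK (g := z) (show (z : GL chevG2.Idx K) ∈ _ by
          rw [hzv]; exact hmem)
        have hbc : x' = 0 ∧ y' = 0 := by
          have h1 : hT K m (-1) * eU K m x' y' z' * eU K m x' y' z' * (hT K m (-1))⁻¹ =
              eU K m x' y' z' * eU K m x' y' z' * 1 → True := fun _ => trivial
          have hk : (z : GL chevG2.Idx K) = eU K m x' y' z' := congrArg Subtype.val ez
          have h3 : (z : GL chevG2.Idx K) ^ 3 = 1 := by rw [hzv]; exact x9x11_cube _ _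
          rw [hk] at h3
          have hx' : x' = 0 := (eU_pow_three_iff x' y' z').mp h3
          subst hx'
          refine ⟨rfl, ?_⟩
          have hz2 : psi2 ((z : GL chevG2.Idx K)) = 0 ∨ True := Or.inr trivial
          have e4 : eB K m y' * eC K m z' = sysG2.xG K 9 a' * sysG2.xG K 11 b' := by
            rw [← hzv, hk, eU, eA_val]; simp [sysG2.xG_zero]
          rw [eBC_kP] at e4
          have e5 : kP (th K m y') (th K m z') y' z' = kP 0 a' 0 b' := by
            rw [e4, kP]; simp [sysG2.xG_zero]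
          exact (kP_inj e5).2.2.1
        refine ⟨-z', ?_⟩
        have hez : z = elC z' := by rw [ez, hbc.1, hbc.2, elU_eq, elA_zero, elB_zero, one_mul, one_mul]
        calc (elB u : ↥G¹) * elA t' = elB u * elA t' * z * z⁻¹ := by group
          _ = elA t' * elB u * (elC z')⁻¹ := by rw [hz, mul_inv_cancel_left, ← hz, hez]
          _ = _ := by rw [inv_eq_of_mul_eq_one_right (show (elC z' : ↥G¹) * elC (-z') = 1 by
              rw [elC_add, add_neg_cancel, elC_zero])]
      obtain ⟨z, hz⟩ := key (P' t)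
      refine ⟨P' t + (a + P' t), z + R' t + (b + fr K m ((-1 : Kˣ) : K) * R' t), ?_, by ring⟩
      rw [elU_eq t' (a + P' t), elU_eq t' (P' t + (a + P' t)), ← elC_add (m := m) (z + R' t), ← elC_add (m := m) z,
        ← elB_add (m := m) (P' t)]
      calc d * (elA t' * elB (a + P' t) * elC (b + fr K m ((-1 : Kˣ) : K) * R' t))
          = elB (P' t) * (elC (R' t) * (elA t' * elB (a + P' t))) *
              elC (b + fr K m ((-1 : Kˣ) : K) * R' t) := by simp only [d]; group
        _ = elB (P' t) * elA t' * elB (a + P' t) * elC (R' t) *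
              elC (b + fr K m ((-1 : Kˣ) : K) * R' t) := by
            rw [elC_comm (R' t) (mul_mem (elA_mem t') (elB_mem _))]; group
        _ = elA t' * elB (P' t) * (elC z * elB (a + P' t)) * elC (R' t) *
              elC (b + fr K m ((-1 : Kˣ) : K) * R' t) := by rw [hz]; group
        _ = _ := by rw [elC_comm z (elB_mem _)]; group
    rw [mul_assoc x d, hp.1, mul_right_inj] at hcomb
    have := (elU_inj hcomb).2.1
    rw [hp.2] at this
    have h2 : (2 : K) * P' t = 0 := by linear_combination -this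
    refine (mul_eq_zero.mp h2).resolve_left fun h => one_ne_zero (α := K) ?_
    linear_combination CharP.ofNat_eq_zero K 3 - h
  have hA' : ∀ t, χ (elA t) = elA t * elC (R' t) := fun t => by
    rw [hPR, hP, elU_eq, elB_zero, mul_one]
  have Rscale : ∀ (w : Kˣ) t, R' ((chiHom K m w : Kˣ) * t) = fr K m w * R' t := by
    intro w t
    obtain ⟨a, b, e⟩ := elH_conj_elA hK w t
    rw [← chiHom_val] at e
    set t'' := (chiHom K m w : K) * t
    have e' := congrArg χ e
    rw [map_mul, map_mul, map_inv, hχH, hA', elU_eq t'', map_mul, map_mul, hA', hχB, hχC] at e'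
    have e2 : elH hK w * (elA t * elC (R' t)) * (elH hK w)⁻¹ =
        elH hK w * elA t * (elH hK w)⁻¹ * (elH hK w * elC (R' t) * (elH hK w)⁻¹) := by group
    rw [e2, e, elH_conj_elC, mul_assoc (elA t'' : ↥G¹), elC_comm _ (elB_mem a),
      show (elA t'' : ↥G¹) * (elB a * elC (R' t'')) * elC b = elA t'' * elB a * (elC (R' t'') * elC b) by group,
      elC_add, ← elU_eq] at e'
    rw [show (elC (fr K m w * R' t) : ↥G¹) = elB 0 * elC (fr K m w * R' t) by rw [elB_zero, one_mul],
      elU_mul_BC] at e'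
    linear_combination -(elU_inj e').2.2
  have Radd : ∀ a b, R' (a + b) = R' a + R' b := by
    intro a b
    obtain ⟨t, u, z, e⟩ := exists_elU hK (mul_mem (elA_mem (m := m) a) (elA_mem (m := m) b))
    have ht : t = a + b := by
      have := psi1_elU_mul hK a 0 0 b 0 0
      rw [elU_A, elU_A, e, psi1_elU] at this
      exact this
    subst ht
    have e' := congrArg χ e
    rw [map_mul, elU_eq, map_mul, map_mul, hA', hA', hA', hχB, hχC,
      show (elA a : ↥G¹) * elC (R' a) * (elA b * elC (R' b)) = elA a * (elC (R' a) * elA b) * elC (R' b) by group,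
      elC_comm _ (elA_mem b), ← mul_assoc (elA a : ↥G¹), e, mul_assoc (elU _ _ _ : ↥G¹), elC_add,
      mul_assoc (elA (a + b) : ↥G¹), elC_comm _ (elB_mem u),
      show (elA (a + b) : ↥G¹) * (elB u * elC (R' (a + b))) * elC z =
        elA (a + b) * elB u * (elC (R' (a + b)) * elC z) by group, elC_add, ← elU_eq,
      show (elC (R' a + R' b) : ↥G¹) = elB 0 * elC (R' a + R' b) by rw [elB_zero, one_mul],
      elU_mul_BC] at e'
    linear_combination -(elU_inj e').2.2
  have hR1 : R' 1 = 0 := by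
    by_contra hr
    have R0 : R' 0 = 0 := by
      have := Radd 0 0
      rw [add_zero] at this
      exact left_eq_add.mp this
    set ρ : K → K := fun x => R' x / R' 1
    have hρχ : ∀ w : Kˣ, ρ (chiHom K m w : Kˣ) = fr K m w := fun w => by
      have := Rscale w 1
      rw [mul_one] at this
      simp only [ρ, this]
      field_simp
    have hρmul : ∀ x y, ρ (x * y) = ρ x * ρ y := by
      intro x y
      rcases eq_or_ne x 0 with rfl | hx
      · simp [ρ, R0]
      obtain ⟨w, hw⟩ := (chi_bijective hK).2 (Units.mk0 x hx)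
      have hx' : x = (chiHom K m w : K) := by rw [hw, Units.val_mk0]
      rw [hx', hρχ]
      simp only [ρ, Rscale]
      ring
    let ρh : K →+* K :=
      { toFun := ρ
        map_one' := div_self hr
        map_mul' := hρmul
        map_zero' := by simp [ρ, R0]
        map_add' := fun x y => by simp only [ρ, Radd, add_div] }
    haveI : Fact (Nat.Prime 3) := ⟨Nat.prime_three⟩
    letI : Algebra (ZMod 3) K := ZMod.algebra K 3
    let ρa : K →ₐ[ZMod 3] K := AlgHom.mk ρh (fun r => RingHom.congr_fun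
      (RingHom.ext_zmod (RingHom.comp ρh (algebraMap (ZMod 3) K)) (algebraMap (ZMod 3) K)) r)
    obtain ⟨n, hn⟩ := (FiniteField.bijective_frobeniusAlgHom_pow (ZMod 3) K).2 ρa
    obtain ⟨gen, hgen⟩ := IsCyclic.exists_generator (α := Kˣ)
    have hord : orderOf gen = q₀ - 1 := by
      rw [orderOf_eq_card_of_forall_mem_zpowers hgen, Nat.card_units, Nat.card_eq_fintype_card, hK]
    have hfrob : ∀ (k : ℕ) (x : K), (FiniteField.frobeniusAlgHom (ZMod 3) K ^ k) x = x ^ 3 ^ k := by
      intro k x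
      induction k with
      | zero => simp
      | succ k ih =>
        rw [pow_succ', AlgHom.mul_apply, ih]
        show (x ^ 3 ^ k) ^ Fintype.card (ZMod 3) = _
        rw [ZMod.card, ← pow_mul, pow_succ]
    have hpow : ∀ x : K, ρ x = x ^ 3 ^ (n : ℕ) := fun x => by
      rw [← hfrob]
      exact (DFunLike.congr_fun hn x).symm
    have hkey := hρχ gen
    rw [hpow, chiHom_val, fr_def, ← pow_mul, div_pow, ← pow_mul, ← pow_mul,
      div_eq_iff (pow_ne_zero _ gen.ne_zero), ← pow_add] at hkey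
    have hkey' : gen ^ (3 ^ (m + 1) * 2 * 3 ^ (n : ℕ)) = gen ^ (3 ^ (m + 1) + 3 * 3 ^ (n : ℕ)) :=
      Units.ext (by simpa using hkey)
    rw [pow_eq_pow_iff_modEq, hord] at hkey'
    -- cancel the common powers of three
    obtain ⟨x, hxdef⟩ : ∃ x, x = 3 ^ m := ⟨_, rfl⟩
    have hx1 : 3 ≤ x := hxdef ▸ le_trans (by norm_num) (Nat.pow_le_pow_right (n := 3) (by norm_num) hm)
    have hqx : q₀ = 3 * (x * x) := by
      rw [hxdef, ← pow_add, ← pow_succ']; congr 1; omega
    have hco : Nat.Coprime (q₀ - 1) 3 := (Nat.Prime.coprime_iff_not_dvd Nat.prime_three).mpr (by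
      intro h
      have hq : 3 ∣ q₀ := dvd_pow_self 3 (by omega)
      have := Nat.dvd_sub hq h
      rw [Nat.sub_sub_self (Nat.one_le_pow _ _ (by norm_num))] at this
      norm_num at this) |>.symm
    have h1 : (2 * x - 1) * 3 ^ (n : ℕ) * 3 ≡ x * 3 [MOD q₀ - 1] := by
      refine Nat.ModEq.add_right_cancel' (3 * 3 ^ (n : ℕ)) ?_
      convert hkey' using 1
      · rw [pow_succ, ← hxdef]; zify [show 1 ≤ 2 * x by omega]; ring
      · rw [pow_succ, ← hxdef]
    have h2 := Nat.ModEq.cancel_right_of_coprime hco h1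
    set k := if (n : ℕ) ≤ m then m - n else 3 * m + 1 - n with hk
    have hn' : (n : ℕ) < 2 * m + 1 := by
      have hfr := Module.card_eq_pow_finrank (K := ZMod 3) (V := K)
      rw [hK, ZMod.card] at hfr
      exact lt_of_lt_of_eq n.2 (Nat.pow_right_injective (by norm_num : 2 ≤ 3) hfr).symm
    have hk' : k < 2 * m + 1 := by rw [hk]; split_ifs <;> omega
    have hq1 : q₀ ≡ 1 [MOD q₀ - 1] :=
      ((Nat.modEq_iff_dvd' (Nat.one_le_pow _ _ (by norm_num))).mpr dvd_rfl).symm
    have h3 : 3 ^ k * 3 ^ (n : ℕ) ≡ x [MOD q₀ - 1] := by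
      rw [← pow_add, hk]
      split_ifs with h
      · rw [Nat.sub_add_cancel h, hxdef]
      · rw [Nat.sub_add_cancel (by omega), show 3 * m + 1 = (2 * m + 1) + m by omega, pow_add 3 (2 * m + 1) m]
        have h := hq1.mul_right x
        rw [one_mul] at h
        rwa [← hxdef]
    have hco' : Nat.Coprime (q₀ - 1) (3 ^ (n : ℕ)) := hco.pow_right _
    have h4 : 2 * x - 1 ≡ 3 ^ k [MOD q₀ - 1] :=
      Nat.ModEq.cancel_right_of_coprime hco' (h2.trans h3.symm)
    have hklt : 3 ^ k < q₀ - 1 := by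
      have : 3 ^ k * 3 ≤ q₀ := by rw [← pow_succ]; exact Nat.pow_le_pow_right (by norm_num) hk'
      have : 1 ≤ 3 ^ k := Nat.one_le_pow _ _ (by norm_num)
      have : 27 ≤ q₀ := (params hm).le
      omega
    have h2x : 2 * x - 1 < q₀ - 1 := by
      have : x * 3 ≤ x * x := Nat.mul_le_mul_left x hx1
      omega
    have h5 := Nat.ModEq.eq_of_lt_of_lt h4 h2x hklt
    have h3x : 3 ∣ x := hxdef ▸ dvd_pow_self 3 (by omega)
    rcases Nat.eq_zero_or_pos k with hk0 | hk0
    · rw [hk0, pow_zero] at h5; omega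
    · have : 3 ∣ 3 ^ k := dvd_pow_self 3 (by omega)
      omega
  have hR : ∀ t, R' t = 0 := by
    intro t
    rcases eq_or_ne t 0 with rfl | ht
    · have := Radd 0 0
      rw [add_zero] at this
      exact left_eq_add.mp this
    obtain ⟨w, hw⟩ := (chi_bijective hK).2 (Units.mk0 t ht)
    have := Rscale w 1
    rw [mul_one, hw, Units.val_mk0, hR1, mul_zero] at this
    exact this
  have hχU : ∀ t u z, χ (elU t u z) = elU t u z := fun t u z => by
    rw [elU_eq, map_mul, map_mul, hA', hR, elC_zero, mul_one, hχB, hχC]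
  -- the image of `n₀`
  obtain ⟨h₀, hn₀⟩ : ∃ h₀, χ nE = elH hK h₀ * nE := by
    obtain ⟨v', hv'⟩ := nE_conj_elH hK v⁻¹
    obtain ⟨w', hw'⟩ := nE_conj_elH hK w₀⁻¹
    have e1 : ∀ (a a' h : Kˣ), (nE : ↥G¹) * elH hK a⁻¹ * nE = elH hK a' →
        elH hK a * (elH hK h * nE) * (elH hK a)⁻¹ = elH hK (a * h * a') * nE := by
      intro a a' h ha
      rw [map_mul, map_mul, ← ha, map_inv]
      calc elH hK a * (elH hK h * nE) * (elH hK a)⁻¹
          = elH hK a * elH hK h * (nE * (elH hK a)⁻¹ * 1) := by group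
        _ = _ := by rw [← nE_mul_nE]; group
    have h0 : χ₀ nE = elH hK (Units.map (τ.symm : K →* K) (v * h₁ * v')) * nE := happ _ _ (by
      rw [hα₂, map_conj_mul, hn₁, e1 v v' h₁ hv', map_mul (fieldAutG hK τ), fieldAutG_nE, fieldAutG_elH]
      congr 2
      exact Units.ext (τ.apply_symm_apply _).symm)
    exact ⟨_, by rw [hχdef, map_conj_mul, h0, e1 w₀ w' _ hw']⟩
  have hh₀ : h₀ = 1 := by
    obtain ⟨a, sg, ha, hsg, hsgn⟩ := exists_dT hK h₀
    have hcube : ((elB 1 : ↥G¹) * nE) ^ 3 = 1 := by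
      refine sHom_injOn hK (pow_mem (mul_mem (eB_mem_centralizer hK 1) (n0_mem_centralizer hK)) 3) ?_
      rw [map_pow, map_mul, show (elB 1 : ↥G¹) = ⟨eB K m 1, eB_twisted 1⟩ from rfl, sHom_eB, sHom_n0,
        ← map_mul, ← map_pow]
      have hm3 : ((upT (th K m (1 : K)) * wT) ^ 3 : SL(2, K)) ∈ Subgroup.center (SL(2, K)) := by
        rw [Matrix.SpecialLinearGroup.mem_center_iff]
        refine ⟨1, by simp, ?_⟩
        rw [map_one, Matrix.SpecialLinearGroup.coe_pow, Matrix.SpecialLinearGroup.coe_mul, pow_succ, sq]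
        ext i j
        fin_cases i <;> fin_cases j <;> simp [upT, wT, Matrix.mul_apply, Fin.sum_univ_two] <;> ring
      rw [Prod.mk_mul_mk, one_mul, Prod.pow_mk, one_pow]
      have := center_le_ker (K := K) (m := m) hm3
      simpa [MonoidHom.mem_ker] using this
    have h3 := congrArg χ hcube
    rw [map_pow, map_mul, hχB, hn₀, map_one] at h3
    have h4 := congrArg (sHom hK) h3
    rw [map_pow, map_mul, map_mul, map_one, show (elB 1 : ↥G¹) = ⟨eB K m 1, eB_twisted 1⟩ from rfl,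
      show elH hK h₀ = ⟨hT K m h₀, hT_mem_twisted hK h₀⟩ from rfl, sHom_eB, sHom_n0,
      sHom_hT hK ha hsg hsgn, ← map_mul, ← map_mul, ← map_pow] at h4
    have hs3 : sg ^ 3 = sg := by rcases hsgn with h | h <;> simp [h, pow_succ]
    have hf : ∀ x : K, x = 1 ∨ x = -1 → fr K m x = x := fr_sign
    obtain ⟨hcen, hsg1⟩ := cHom_ker (fr K m) h4 (by
      simp only [Prod.pow_snd, Prod.snd_mul, one_mul, mul_one, hs3]; exact hsgn) hf
    simp only [Prod.pow_snd, Prod.snd_mul, one_mul, mul_one, hs3] at hsg1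
    rw [Matrix.SpecialLinearGroup.mem_center_iff] at hcen
    obtain ⟨r, -, hr⟩ := hcen
    simp only [Prod.pow_fst, Prod.fst_mul, Matrix.SpecialLinearGroup.coe_pow,
      Matrix.SpecialLinearGroup.coe_mul, map_one] at hr
    have h01 := congrFun (congrFun hr 0) 1
    have ha0 := a.ne_zero
    simp [pow_succ, upT, dT, wT, Matrix.mul_apply, Fin.sum_univ_two] at h01
    have ha2 : (a : K) ^ 2 = 1 := by
      field_simp at h01
      first
        | linear_combination h01
        | linear_combination -h01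
    have hfa : fr K m (a : K) = a := by
      rcases sq_eq_one_iff.mp ha2 with h | h <;> rw [h] <;> simp
    refine Units.ext ?_
    rw [← hsg, hsg1, Units.val_one, one_mul, hfa, ← sq, ha2]
  rw [hh₀, map_one, one_mul] at hn₀
  have hone : χ = 1 := by
    refine MulEquiv.ext fun x => ?_
    rcases group_cases hK x with ⟨t, u, z, w, rfl⟩ | ⟨t, u, z, w, t', u', z', rfl⟩
    · rw [map_mul, hχU, hχH]; rfl
    · rw [map_mul, map_mul, map_mul, hχU, hχH, hn₀, hχU]; rfl
  refine ⟨(elH hK v * g₁)⁻¹ * fieldAutG hK τ (elH hK w₀)⁻¹, τ, ?_⟩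
  refine MulEquiv.ext fun x => ?_
  have h1 : elH hK w₀ * χ₀ x * (elH hK w₀)⁻¹ = x := by
    rw [← map_conj_mul (φ := χ₀), ← hχdef, hone]; rfl
  have h2 : χ₀ x = (elH hK w₀)⁻¹ * x * elH hK w₀ := by
    calc χ₀ x = (elH hK w₀)⁻¹ * (elH hK w₀ * χ₀ x * (elH hK w₀)⁻¹) * elH hK w₀ := by group
      _ = _ := by rw [h1]
  have h3 : α₂ x = fieldAutG hK τ (χ₀ x) := ((fieldAutG hK τ).apply_symm_apply _).symm
  rw [h2, map_mul, map_mul, map_inv] at h3
  have h4 : α₂ x = elH hK v * g₁ * φ x * (elH hK v * g₁)⁻¹ := by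
    rw [hα₂, map_conj_mul]
    show elH hK v * (g₁ * φ x * g₁⁻¹) * (elH hK v)⁻¹ = _
    group
  rw [h4] at h3
  rw [map_conj_mul]
  calc φ x = (elH hK v * g₁)⁻¹ * (elH hK v * g₁ * φ x * (elH hK v * g₁)⁻¹) * (elH hK v * g₁) := by group
    _ = _ := by rw [h3, map_inv]; group

theorem eq_refl_of_field_eq_conj {σ : K ≃+* K} {g : ↥G¹} (h : fieldAutG hK σ = MulAut.conj g) :
    σ = RingEquiv.refl K := by
  have happ : ∀ x, fieldAutG hK σ x = g * x * g⁻¹ := fun x => by rw [h]; rfl
  have hgB : (g : GL chevG2.Idx K) ∈ chevG2.borelSubgroup K := mem_borel_of_conj hK (elB_mem 1)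
    (elB_one_ne_one hK) (by rw [← happ, fieldAutG_elB]; exact elB_mem _)
  have hgn : (nE : ↥G¹) * g * nE = g := by
    have e : g * nE * g⁻¹ = nE := by rw [← happ, fieldAutG_nE]
    calc (nE : ↥G¹) * g * nE = g * nE * g⁻¹ * g * nE := by rw [e]
      _ = g * (nE * nE) := by group
      _ = g := by rw [nE_mul_nE, mul_one]
  obtain ⟨w, rfl⟩ := torus_of_opposite hK hgB (by rw [hgn]; exact hgB)
  have hA : ∀ t : K, σ t = fr K m w ^ 2 / (w : K) ^ 3 * t := by
    intro t
    obtain ⟨a, b, e⟩ := elH_conj_elU hK w t 0 0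
    have h2 := happ (elU t 0 0)
    rw [fieldAutG_elU, e] at h2
    exact (elU_inj h2).1
  have h1 := hA 1
  rw [map_one, mul_one] at h1
  ext t
  rw [hA t, ← h1, one_mul]
  rfl

theorem card_out_twisted : Nat.card (Cfsg.Out ↥G¹) = 2 * m + 1 := by
  haveI : Fact (Nat.Prime 3) := ⟨Nat.prime_three⟩
  let Ψ : (K ≃+* K) → Cfsg.Out ↥G¹ := fun σ => QuotientGroup.mk (fieldAutG hK σ)
  rw [← CfsgLib.SuzukiAut.card_ringAut hK]
  refine (Nat.card_eq_of_bijective Ψ ⟨fun σ τ h => ?_, fun x => ?_⟩).symm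
  · obtain ⟨g, hg⟩ := QuotientGroup.eq.1 h
    have hcomp : (fieldAutG hK σ)⁻¹ * fieldAutG hK τ = fieldAutG hK (τ.trans σ.symm) := by
      rw [inv_mul_eq_iff_eq_mul]
      refine MulEquiv.ext fun x => Subtype.ext (Units.ext (Matrix.ext fun i j => ?_))
      simp [fieldAutG, CfsgLib.ChevField.gmap_val]
    rw [hcomp] at hg
    have := eq_refl_of_field_eq_conj hK hm hg.symm
    ext x
    have hx := RingEquiv.congr_fun this x
    simpa using (congrArg σ hx).symm
  · obtain ⟨φ, rfl⟩ := QuotientGroup.mk_surjective x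
    obtain ⟨g, σ, rfl⟩ := exists_decomposition_aut hK hm φ
    refine ⟨σ, ?_⟩
    show QuotientGroup.mk _ = QuotientGroup.mk _
    rw [QuotientGroup.eq]
    exact ⟨(fieldAutG hK σ).symm g, by ext x; simp [MulAut.conj_apply]⟩

end CfsgLib.Ree
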