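import Cfsg.Agent.ChevUnipotent.Triangular
import Cfsg.Agent.TwistedLie.F4Facts

/-!
The unipotent elements of `²F₄(q)` have order at most `32`: positive root elements raise the height,
of which there are 23 values in the adjoint module.
-/

set_option autoImplicit false

namespace CfsgLib.Ree.F4

open Cfsg.Lie Cfsg.Lie.ChevalleyDatum CfsgLib.ChevUnipotent

/-- Heights of the roots of `F₄`, shifted by `11`. -/
def htTab : List ℕ :=
  [0, 1, 2, 3, 4, 5, 6, 4, 5, 6, 7, 7, 8, 9, 10, 6, 7, 8, 8, 9, 10, 9, 10, 10, 12, 12, 13, 12, 13,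
    14, 14, 15, 16, 12, 13, 14, 15, 15, 16, 17, 18, 16, 17, 18, 19, 20, 21, 22]

/-- The height of a basis vector. -/
def htLevel : chevF4.Idx → ℕ
  | .inl _ => 11
  | .inr u => htTab.getD (u : ℕ) 11

theorem htLevel_lt : ∀ i, htLevel i < 23 := by decide +kernel

theorem ht_table : ∀ r < chevF4.nroots, chevF4.IsPosRoot r →
    11 < htTab.getD r 11 ∧ htTab.getD (chevF4.negIdx.getD r 0) 11 < 11 ∧
      ∀ e ∈ (chevF4.chain.getD r #[]).toList, ∀ q ∈ e.2.toList,
        htTab.getD e.1 11 < htTab.getD q.1 11 := by decide +kernel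

theorem raises_ht {F : Type*} [Field F] {r : ℕ} (hpos : chevF4.IsPosRoot r) (t : F) :
    Raises htLevel 1 (chevF4.x F r t - 1) := by
  have hr : r < chevF4.nroots := hpos.1
  obtain ⟨hr2, hneg, hch⟩ := ht_table r hr hpos
  intro row col h
  rw [Matrix.sub_apply, sub_eq_zero, ChevalleyDatum.x, dif_pos hr]
  rcases col with i | s <;> rcases row with i' | u
  · simp [ChevalleyDatum.xMat, Matrix.one_apply]
  · have hu : (u : ℕ) ≠ r := by
      intro e
      simp only [htLevel, e] at h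
      omega
    simp [ChevalleyDatum.xMat, Fin.ext_iff, hu]
  · have hs : (s : ℕ) ≠ chevF4.negIdx.getD r 0 := by
      intro e
      simp only [htLevel, e] at h
      omega
    simp only [ChevalleyDatum.xMat, Matrix.of_apply, if_neg hs]
    split_ifs <;> simp
  · simp only [ChevalleyDatum.xMat, Matrix.of_apply, Matrix.one_apply, Sum.inr.injEq]
    simp only [htLevel] at h
    by_cases hsr : (s : ℕ) = r
    · rw [if_pos (show s = (⟨r, hr⟩ : Fin chevF4.nroots) from Fin.ext hsr)]
      by_cases hus : u = s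
      · subst hus; simp [Fin.ext_iff, hsr]
      · have hur : (u : ℕ) ≠ r := fun e => hus (Fin.ext (e.trans hsr.symm))
        simp [Fin.ext_iff, hur, Fin.val_ne_of_ne hus]
    · rw [if_neg (fun e => hsr (by rw [e]))]
      by_cases hsn : (s : ℕ) = chevF4.negIdx.getD r 0
      · rw [if_pos hsn]
        by_cases hus : u = s
        · simp [hus]
        · rw [if_neg hus, if_neg hus, if_neg]
          intro e
          have e' : (u : ℕ) = r := congrArg Fin.val e
          simp only [e', hsn] at h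
          omega
      · rw [if_neg hsn]
        have hnil : chevF4.chainCoeff r s u = [] := by
          rw [List.eq_nil_iff_forall_not_mem]
          intro km hkm
          simp only [ChevalleyDatum.chainCoeff, List.mem_flatMap, List.mem_map, List.mem_filter,
            decide_eq_true_eq] at hkm
          obtain ⟨e, ⟨he, hes⟩, q, ⟨hq, hqu⟩, _⟩ := hkm
          have := hch e he q.1 (List.fst_mem_of_mem_zipIdx hq)
          rw [hes, hqu] at this
          omega
        rw [hnil]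
        simp

theorem posUnipotent_pow_eq_one {F : Type*} [Field F] [CharP F 2] {g : GL chevF4.Idx F}
    (hg : g ∈ chevF4.posUnipotent F) : g ^ 32 = 1 := by
  have hle : chevF4.posUnipotent F ≤ levelGroup F htLevel 0 := by
    rw [ChevalleyDatum.posUnipotent, Subgroup.closure_le]
    rintro z ⟨r, t, hpos, hz⟩
    rw [SetLike.mem_coe, mem_levelGroup, hz]
    exact raises_ht hpos t
  set A : Matrix chevF4.Idx chevF4.Idx F := (g : Matrix chevF4.Idx chevF4.Idx F) - 1 with hA
  have hA1 : Raises htLevel 1 A := (mem_levelGroup F htLevel).1 (hle hg)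
  have hA0 : A ^ 32 = 0 :=
    eq_zero_of_raises (hA1.pow 32) fun i => (htLevel_lt i).trans (by norm_num)
  have h2 : ∀ B : Matrix chevF4.Idx chevF4.Idx F, B + B = 0 := fun B => by
    ext i j
    exact CharTwo.add_self_eq_zero _
  have hsq : ∀ k : ℕ, (1 + A) ^ (2 ^ k) = 1 + A ^ (2 ^ k) := by
    intro k
    induction k with
    | zero => simp
    | succ k ih =>
      rw [pow_succ, pow_mul, ih, pow_mul, sq, sq,
        show (1 + A ^ 2 ^ k) * (1 + A ^ 2 ^ k) =
          1 + A ^ 2 ^ k * A ^ 2 ^ k + (A ^ 2 ^ k + A ^ 2 ^ k) by noncomm_ring, h2, add_zero]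
  refine Units.ext ?_
  have := hsq 5
  rw [show (2 : ℕ) ^ 5 = 32 from rfl, hA0, add_zero, hA, add_sub_cancel] at this
  rw [Units.val_pow_eq_pow_val, Units.val_one]
  exact this

section group

variable {K : Type*} [Field K] [Fintype K] {m : ℕ} (hK : Fintype.card K = 2 ^ (2 * m + 1))
include hK

theorem pow_32_eq_one {x : ↥(twistedF4 K (2 ^ m))} (hx : ∃ j : ℕ, orderOf x = 2 ^ j) :
    x ^ 32 = 1 := by
  haveI : Fact (Nat.Prime 2) := ⟨Nat.prime_two⟩
  haveI : CharP K 2 := by
    obtain ⟨p, _⟩ := CharP.exists K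
    haveI : Fact p.Prime := ⟨CharP.char_is_prime K p⟩
    obtain ⟨n, _, hn⟩ := FiniteField.card K p
    rw [hK] at hn
    have hp : p = 2 := ((Nat.prime_dvd_prime_iff_eq Fact.out Nat.prime_two).1
      ((Fact.out : p.Prime).dvd_of_dvd_pow (n := 2 * m + 1) (hn ▸ dvd_pow_self p n.ne_zero)))
    exact hp ▸ ‹CharP K p›
  obtain ⟨j, hj⟩ := hx
  let G := twistedF4 K (2 ^ m)
  let P : Subgroup ↥G := (chevF4.posUnipotent K ⊓ G).subgroupOf G
  have hP : Nat.card ↥P = (2 ^ (2 * m + 1)) ^ 12 := by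
    rw [Nat.card_congr (Subgroup.subgroupOfEquivOfLe
      (inf_le_right : chevF4.posUnipotent K ⊓ G ≤ G)).toEquiv]
    exact CfsgLib.TwistedLie.F4.card_U hK
  have hG : Nat.card ↥G = (2 ^ (2 * m + 1)) ^ 12 * (2 ^ (2 * m + 1) - 1) *
      ((2 ^ (2 * m + 1)) ^ 3 + 1) * ((2 ^ (2 * m + 1)) ^ 4 - 1) * ((2 ^ (2 * m + 1)) ^ 6 + 1) :=
    CfsgLib.TwistedLie.F4.card_group hK
  have hidx : P.index = (2 ^ (2 * m + 1) - 1) * ((2 ^ (2 * m + 1)) ^ 3 + 1) *
      ((2 ^ (2 * m + 1)) ^ 4 - 1) * ((2 ^ (2 * m + 1)) ^ 6 + 1) := by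
    have := P.card_mul_index
    rw [hP, hG] at this
    apply Nat.eq_of_mul_eq_mul_left (n := (2 ^ (2 * m + 1)) ^ 12) (by positivity)
    rw [this]
    ring
  have hodd : ¬ 2 ∣ P.index := by
    rw [hidx]
    have hq : Even (2 ^ (2 * m + 1)) := Nat.even_pow.2 ⟨even_two, by omega⟩
    have h0 : 2 ^ (2 * m + 1) ≠ 0 := by positivity
    generalize 2 ^ (2 * m + 1) = q at hq h0
    have h1 : ∀ n ≠ 0, ¬ 2 ∣ q ^ n + 1 := fun n hn => by
      have := Nat.even_pow.2 ⟨hq, hn⟩
      rw [← even_iff_two_dvd, Nat.even_add_one]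
      exact not_not.2 this
    have h2 : ∀ n ≠ 0, q ≠ 0 → ¬ 2 ∣ q ^ n - 1 := fun n hn h0 => by
      have := even_iff_two_dvd.1 (Nat.even_pow.2 ⟨hq, hn⟩)
      have : 0 < q ^ n := pow_pos (Nat.pos_of_ne_zero h0) n
      omega
    simp only [Nat.prime_two.dvd_mul, not_or]
    refine ⟨⟨⟨?_, h1 3 (by omega)⟩, h2 4 (by omega) h0⟩, h1 6 (by omega)⟩
    simpa using h2 1 (by omega) h0
  have hPp : IsPGroup 2 ↥P := IsPGroup.of_card (n := (2 * m + 1) * 12) (by rw [hP, pow_mul])
  let P' : Sylow 2 ↥G := hPp.toSylow hodd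
  have hz : IsPGroup 2 (Subgroup.zpowers x) :=
    IsPGroup.of_card (n := j) (by rw [Nat.card_zpowers, hj])
  obtain ⟨Q, hQ⟩ := hz.exists_le_sylow
  obtain ⟨c, hc⟩ := MulAction.exists_smul_eq ↥G Q P'
  have hmem : c * x * c⁻¹ ∈ P := by
    have : c * x * c⁻¹ ∈ ((c • Q : Sylow 2 ↥G) : Subgroup ↥G) := by
      rw [Sylow.coe_subgroup_smul, Subgroup.mem_pointwise_smul_iff_inv_smul_mem]
      simpa [MulAut.smul_def, MulAut.conj_apply, mul_assoc] using
        hQ (Subgroup.mem_zpowers x)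
    rw [hc] at this
    simpa [P'] using this
  have h := posUnipotent_pow_eq_one (Subgroup.mem_inf.1 (Subgroup.mem_subgroupOf.1 hmem)).1
  have h' : (c * x * c⁻¹) ^ 32 = 1 := Subtype.ext (by simpa using h)
  rw [conj_pow, mul_inv_eq_one, mul_eq_left] at h'
  exact h'

end group

end CfsgLib.Ree.F4
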