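import Cfsg.Agent.Ree.SylowTwo
import Cfsg.Agent.PSLSmall.Five04

/-!
The smallest twisted group of type G₂: a simple derived subgroup of order 504 and index three.
-/

set_option autoImplicit false

open scoped MatrixGroups Pointwise commutatorElement

namespace CfsgLib.Ree

open Cfsg.Lie CfsgLib.Chevalley

variable {K : Type*} [Field K] [CharP K 3] [Fintype K]

local notation "G¹" => twistedG2 K (3 ^ 0)

variable (hK : Fintype.card K = 3 ^ (2 * 0 + 1))

/-- The symbolic word of the cyclic generator of order nine. -/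
def wX1 : List (ℕ × List Mon) := wA1 ++ [(8, [(1, 0, 0)]), (10, [(1, 0, 0)])]

/-- The symbolic word of the torus involution. -/
def wH1 : List (ℕ × List Mon) :=
  [(10, [(-1, 0, 0)]), (1, [(1, 0, 0)]), (10, [(-1, 0, 0)]),
    (10, [(-1, 0, 0)]), (1, [(1, 0, 0)]), (10, [(-1, 0, 0)])]

theorem invertB : eq3B (wH1 ++ wX1 ++ wH1 ++ wX1) [] = true := by decide +kernel

/-- An element of order nine inverted by the torus involution. -/
noncomputable def elNine : ↥G¹ := ⟨eU K 0 1 1 0, eU_mem_twisted _ _ _⟩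

omit [Fintype K] in
theorem invE_conj_elNine : (invE : ↥G¹) * elNine * invE = elNine⁻¹ := by
  refine eq_inv_of_mul_eq_one_left (Subtype.ext ?_)
  show hT K 0 (-1) * eU K 0 1 1 0 * hT K 0 (-1) * eU K 0 1 1 0 = 1
  have e := eq3_sound (F := K) invertB 0 0
  rw [ew_append, ew_append, ew_append, ew_nil] at e
  have e1 : ew (0 : K) 0 wX1 = eU K 0 1 1 0 := by
    rw [wX1, ew_append]
    simp [eU, eA, eB, eC, ew_cons, ew_nil, wA1, wA, wB, wC, pev, sysG2.xG_zero]
  rw [e1] at e
  rw [hT_neg_one_eq]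
  exact e

omit [Fintype K] [CharP K 3] [Field K] in
/-- A supplement of a normal subgroup has index dividing the order of that subgroup. -/
theorem index_dvd_card_of_sup_eq_top {G : Type*} [Group G] [Finite G] {B N : Subgroup G} [N.Normal]
    (h : B ⊔ N = ⊤) : B.index ∣ Nat.card ↥N := by
  have e := Subgroup.relIndex_sup_right (H := B) (K := N)
  rw [h, Subgroup.relIndex_top_right] at e
  have e1 : Nat.card ↥(N.subgroupOf B) * N.index = Nat.card ↥B := by
    rw [e]; exact (N.subgroupOf B).card_mul_index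
  have e2 : Nat.card ↥N * N.index = Nat.card ↥(N.subgroupOf B) * B.index * N.index := by
    rw [N.card_mul_index, mul_right_comm, e1, B.card_mul_index]
  exact ⟨_, (Nat.eq_of_mul_eq_mul_right (Nat.pos_of_ne_zero Subgroup.index_ne_zero_of_finite) e2).trans
    (mul_comm _ _)⟩

include hK

theorem card_G_three : Nat.card ↥G¹ = 1512 := by
  rw [card_twisted hK]
  norm_num

theorem orderOf_elNine : orderOf (elNine : ↥G¹) = 9 := by
  haveI : Fact (Nat.Prime 3) := ⟨Nat.prime_three⟩
  refine orderOf_eq_prime_pow (p := 3) (n := 1) ?_ ?_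
  · intro h
    have := congrArg Subtype.val h
    rw [pow_one, Subgroup.coe_pow, Subgroup.coe_one] at this
    exact one_ne_zero (α := K) ((eU_pow_three_iff (m := 0) (1 : K) 1 0).mp this)
  · exact pow_nine_of_uSub3 hK
      (show (elNine : ↥G¹) ∈ uSub3 K 0 from eU_pos (m := 0) (1 : K) 1 0)

theorem focal_le : ∀ g : ↥G¹, g ∈ commutator ↥G¹ → g ∈ uSub3 K 0 →
    g ∈ Subgroup.zpowers (elNine : ↥G¹) := by
  haveI : Fact (Nat.Prime 3) := ⟨Nat.prime_three⟩
  have hq := Q_of_card hK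
  set U : Subgroup ↥G¹ := uSub3 K 0 with hU
  set M : Subgroup ↥G¹ := Subgroup.zpowers elNine with hM
  have hxU : (elNine : ↥G¹) ∈ U := eU_pos (m := 0) (1 : K) 1 0
  have hMU : M ≤ U := Subgroup.zpowers_le.mpr hxU
  have hU27 : Nat.card ↥U = 27 := by rw [hU, card_uSub3 hK]; norm_num
  set M' : Subgroup ↥U := M.subgroupOf U
  have hidx : M'.index = 3 := by
    have e := M'.card_mul_index
    rw [Nat.card_congr (Subgroup.subgroupOfEquivOfLe hMU).toEquiv, hM, Nat.card_zpowers,
      orderOf_elNine hK, hU27] at e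
    omega
  haveI hn : M'.Normal := Subgroup.normal_of_index_eq_minFac_card (by rw [hidx, hU27]; norm_num)
  haveI : IsCyclic (↥U ⧸ M') := isCyclic_of_prime_card (p := 3) hidx
  have hnormM : ∀ a ∈ U, ∀ y ∈ M, a * y * a⁻¹ ∈ M := fun a ha y hy =>
    Subgroup.mem_subgroupOf.mp (hn.conj_mem ⟨y, hMU hy⟩ (Subgroup.mem_subgroupOf.mpr hy) ⟨a, ha⟩)
  have hcomm : ∀ a ∈ U, ∀ b ∈ U, a * b * a⁻¹ * b⁻¹ ∈ M := fun a ha b hb => by
    have h : (QuotientGroup.mk (⟨a, ha⟩ * ⟨b, hb⟩ * (⟨a, ha⟩ : ↥U)⁻¹ * (⟨b, hb⟩ : ↥U)⁻¹) : ↥U ⧸ M') = 1 := by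
      simp only [QuotientGroup.mk_mul, QuotientGroup.mk_inv]
      letI : CommGroup (↥U ⧸ M') := IsCyclic.commGroup
      rw [mul_comm ((⟨a, ha⟩ : ↥U) : ↥U ⧸ M') (⟨b, hb⟩ : ↥U), mul_inv_cancel_right, mul_inv_cancel]
    exact Subgroup.mem_subgroupOf.mp ((QuotientGroup.eq_one_iff _).mp h)
  -- the element centralised by the torus involution
  set z : ↥G¹ := ⟨eB K 0 1, eB_twisted 1⟩ with hz
  have hzU : z ∈ U := eB_pos (m := 0) (1 : K)
  have hzM : z ∉ M := by
    intro h
    obtain ⟨k, hk⟩ := Subgroup.mem_zpowers_iff.mp h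
    have h3 : z ^ (3 : ℕ) = 1 := Subtype.ext (eB_cube (m := 0) (1 : K))
    rw [← hk, ← zpow_natCast, ← zpow_mul, ← orderOf_dvd_iff_zpow_eq_one, orderOf_elNine hK] at h3
    obtain ⟨j, hj⟩ : (3 : ℤ) ∣ k := by omega
    have hc : eU K 0 (1 : K) 1 0 ^ 3 = eC K 0 (-(fr K 0 1 * 1 ^ 2)) := by
      rw [eU_cube, eA_cube_eq hq]
    have hzC : ∀ i : ℤ, ∃ v, (((elNine : ↥G¹) ^ (3 * i) : ↥G¹) : GL chevG2.Idx K) = eC K 0 v := fun i => by
      rw [Subgroup.coe_zpow, zpow_mul, show ((3 : ℤ)) = ((3 : ℕ) : ℤ) from rfl, zpow_natCast]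
      induction i using Int.induction_on with
      | zero => exact ⟨0, by simp [eC_val, sysG2.xG_zero]⟩
      | succ i ih =>
        obtain ⟨v, hv⟩ := ih
        refine ⟨v + -(fr K 0 1 * 1 ^ 2), ?_⟩
        rw [zpow_add_one, hv, show ((elNine : ↥G¹) : GL chevG2.Idx K) = eU K 0 1 1 0 from rfl, hc, eC_add]
      | pred i ih =>
        obtain ⟨v, hv⟩ := ih
        refine ⟨v + fr K 0 1 * 1 ^ 2, ?_⟩
        rw [zpow_sub_one, hv, show ((elNine : ↥G¹) : GL chevG2.Idx K) = eU K 0 1 1 0 from rfl, hc,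
          eC_inv, eC_add, neg_neg]
    obtain ⟨v, hv⟩ := hzC j
    rw [← hj, hk] at hv
    have e : eU K 0 (0 : K) 1 0 = eU K 0 0 0 v := by
      simpa [eU, eA_val, eB_val, eC_val, sysG2.xG_zero, hz] using hv
    exact one_ne_zero (α := K) (eU_inj e).2.1
  set z' : ↥U := ⟨z, hzU⟩
  have htop : M' ⊔ Subgroup.zpowers z' = ⊤ := by
    rw [← Subgroup.index_eq_one]
    have hd := Subgroup.index_dvd_of_le (le_sup_left : M' ≤ M' ⊔ Subgroup.zpowers z')
    rw [hidx] at hd
    refine ((Nat.dvd_prime Nat.prime_three).mp hd).resolve_right fun h => ?_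
    have he : M' = M' ⊔ Subgroup.zpowers z' := by
      refine Subgroup.eq_of_le_of_card_ge le_sup_left ?_
      have e1 := M'.card_mul_index
      have e2 := (M' ⊔ Subgroup.zpowers z').card_mul_index
      rw [hidx] at e1
      rw [h] at e2
      omega
    exact hzM (Subgroup.mem_subgroupOf.mp
      (he ▸ le_sup_right (a := M') (Subgroup.mem_zpowers z') : z' ∈ M'))
  have hinvMM : ∀ y ∈ M, (invE : ↥G¹) * y * invE = y⁻¹ := by
    intro y hy
    obtain ⟨k, rfl⟩ := Subgroup.mem_zpowers_iff.mp hy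
    have hi : (invE : ↥G¹) = invE⁻¹ := (inv_eq_of_mul_eq_one_right (invE_mul_self)).symm
    nth_rw 2 [hi]
    rw [← conj_zpow, ← hi, invE_conj_elNine, inv_zpow]
  have hcz : (invE : ↥G¹) * z = z * invE := Subtype.ext (hT_neg_one_commute_eB hK (1 : K))
  have hh : ∀ y ∈ U, y * invE * y⁻¹ * invE ∈ M := by
    intro y hy
    have hmem : (⟨y, hy⟩ : ↥U) ∈ ((M' ⊔ Subgroup.zpowers z' : Subgroup ↥U) : Set ↥U) := by
      rw [htop]; trivial
    rw [Subgroup.normal_mul] at hmem
    obtain ⟨p, hp, r, hr, hpr⟩ := hmem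
    obtain ⟨k, rfl⟩ := Subgroup.mem_zpowers_iff.mp hr
    have hy' : y = (p : ↥G¹) * z ^ k := by
      have := congrArg Subtype.val hpr
      simpa [z'] using this.symm
    have hck : (invE : ↥G¹) * z ^ k = z ^ k * invE := (Commute.zpow_right hcz k).eq
    rw [hy', show (p : ↥G¹) * z ^ k * invE * ((p : ↥G¹) * z ^ k)⁻¹ * invE =
      (p : ↥G¹) * (z ^ k * invE * (z ^ k)⁻¹) * (p : ↥G¹)⁻¹ * invE by group, ← hck,
      mul_inv_cancel_right, show (p : ↥G¹) * invE * (p : ↥G¹)⁻¹ * invE =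
      (p : ↥G¹) * (invE * (p : ↥G¹)⁻¹ * invE) by group,
      hinvMM _ (inv_mem (Subgroup.mem_subgroupOf.mp hp)), inv_inv]
    exact mul_mem (Subgroup.mem_subgroupOf.mp hp) (Subgroup.mem_subgroupOf.mp hp)
  obtain ⟨S, hS⟩ := exists_uSylow (m := 0) hK
  have hfoc : (S : Subgroup ↥G¹).focalSubgroup ≤ M := by
    rw [Subgroup.focalSubgroup_def, Subgroup.closure_le]
    rintro g ⟨hg, y, hy, c, rfl⟩
    rw [hS] at hg hy
    rw [commutatorElement_def] at hg ⊢
    rcases eq_or_ne y 1 with rfl | hy1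
    · simp
    have hcy : c * y⁻¹ * c⁻¹ ∈ U := by
      have := mul_mem (inv_mem hy) hg
      rwa [show y⁻¹ * (y * c * y⁻¹ * c⁻¹) = c * y⁻¹ * c⁻¹ by group] at this
    have hcB := ti_uSub3 hK (inv_mem hy) (inv_ne_one.mpr hy1) hcy
    obtain ⟨t, u, v, w, e⟩ := borel_fix hq (Subgroup.mem_subgroupOf.mp hcB).1
      (twistedG2_le_fixSub hq c.2)
    set a : ↥G¹ := ⟨eU K 0 t u v, eU_mem_twisted _ _ _⟩ with ha
    have haU : a ∈ U := eU_pos (m := 0) t u v
    have hw : (w : K) = 1 ∨ (w : K) = -1 := (fr_eq_self_iff hK w.ne_zero).mp (by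
      rw [fr_def, pow_succ, pow_zero, one_mul]
      have := FiniteField.pow_card (w : K)
      rwa [hK, pow_succ, mul_zero, pow_zero, one_mul] at this)
    rcases hw with hw | hw
    · have hc : c = a := Subtype.ext (e.trans (by rw [show w = 1 from Units.ext hw, map_one, mul_one]))
      rw [hc]
      exact hcomm y hy a haU
    · have hc : c = a * invE := Subtype.ext (e.trans (by
        rw [show w = -1 from Units.ext (by simpa using hw)]; rfl))
      rw [hc, show y * (a * invE) * y⁻¹ * (a * invE)⁻¹ =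
        y * a * y⁻¹ * a⁻¹ * (a * (y * invE * y⁻¹ * invE⁻¹) * a⁻¹) by group,
        inv_eq_of_mul_eq_one_right invE_mul_self]
      exact mul_mem (hcomm y hy a haU) (hnormM a haU _ (hh y hy))
  intro g hg hgU
  refine hfoc ?_
  rw [← Subgroup.commutator_inf_eq_focalSubgroup S]
  exact ⟨hg, hS.symm ▸ hgU⟩

theorem commutator_three_ne_top : commutator ↥G¹ ≠ ⊤ := by
  intro h
  set z : ↥G¹ := ⟨eB K 0 1, eB_twisted 1⟩ with hz
  have hx : (elNine : ↥G¹) ∈ uSub3 K 0 := eU_pos (m := 0) (1 : K) 1 0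
  have hall : uSub3 K 0 ≤ Subgroup.zpowers (elNine : ↥G¹) := fun g hg =>
    focal_le hK g (h ▸ Subgroup.mem_top g) hg
  have := Subgroup.card_le_of_le hall
  rw [Nat.card_zpowers, orderOf_elNine hK, card_uSub3 hK] at this
  norm_num at this

theorem dvd_card_of_normal {N : Subgroup ↥G¹} [N.Normal] (hN : N ≠ ⊥) : 504 ∣ Nat.card ↥N := by
  haveI : Fact (Nat.Prime 2) := ⟨Nat.prime_two⟩
  set B : Subgroup ↥G¹ := (chevG2.borelSubgroup K ⊓ G¹).subgroupOf G¹ with hB
  have hnB : ¬ N ≤ B := fun h => hN (by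
    have hle : N ≤ (bnPairRee hK).B.normalCore := Subgroup.normal_le_normalCore.mpr h
    rwa [core_twisted hK, le_bot_iff] at hle)
  obtain ⟨g, hgN, hgB⟩ := SetLike.not_le_iff_exists.mp hnB
  have htop : B ⊔ N = ⊤ := by
    have hmem : ∀ x : ↥G¹, x ∉ B → ∃ b c, b ∈ B ∧ c ∈ B ∧ x = b * nE * c := fun x hx => by
      rcases bruhat_twisted hK x.2 with ⟨t, u, v, w, e⟩ | ⟨t, u, v, w, t', u', v', e⟩
      · exact absurd ⟨(by rw [show G¹.subtype x = _ from e]; exact eU_hT_mem_borel t u v w), x.2⟩ hx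
      refine ⟨⟨_, mul_mem (eU_mem_twisted t u v) (hT_mem_twisted hK w)⟩,
        ⟨_, eU_mem_twisted t' u' v'⟩, ⟨eU_hT_mem_borel t u v w,
          mul_mem (eU_mem_twisted t u v) (hT_mem_twisted hK w)⟩,
        ⟨by simpa using eU_hT_mem_borel (m := 0) t' u' v' (1 : Kˣ), eU_mem_twisted t' u' v'⟩,
        Subtype.ext e⟩
    obtain ⟨b, c, hb, hc, e⟩ := hmem g hgB
    have hn : (nE : ↥G¹) ∈ B ⊔ N := by
      have : b⁻¹ * g * c⁻¹ = nE := by rw [e]; group
      rw [← this]
      exact mul_mem (mul_mem (inv_mem (Subgroup.mem_sup_left hb)) (Subgroup.mem_sup_right hgN))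
        (inv_mem (Subgroup.mem_sup_left hc))
    refine eq_top_iff.mpr fun x _ => ?_
    by_cases hx : x ∈ B
    · exact Subgroup.mem_sup_left hx
    obtain ⟨b', c', hb', hc', rfl⟩ := hmem x hx
    exact mul_mem (mul_mem (Subgroup.mem_sup_left hb') hn) (Subgroup.mem_sup_left hc')
  have h28 : 28 ∣ Nat.card ↥N := by
    have hd := index_dvd_card_of_sup_eq_top htop
    rw [hB, index_borel hK] at hd
    norm_num at hd
    exact hd
  obtain ⟨t, ht⟩ := exists_prime_orderOf_dvd_card' (G := ↥N) 2 (dvd_trans (by norm_num) h28)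
  obtain ⟨S⟩ := (inferInstance : Nonempty (Sylow 2 ↥G¹))
  obtain ⟨h8, h2⟩ := sylow_two_twisted hK S
  obtain ⟨d, hd⟩ := exists_conj_invE hK (g := (t : ↥G¹)) (by rw [Subgroup.orderOf_coe]; exact ht)
  have hinvN : (invE : ↥G¹) ∈ N := hd ▸ Subgroup.Normal.conj_mem inferInstance _ t.2 d
  have hSN : (S : Subgroup ↥G¹) ≤ N := fun x hx => by
    rcases eq_or_ne x 1 with rfl | hx1
    · exact one_mem _
    obtain ⟨c, hc⟩ := exists_conj_invE hK (g := x) (orderOf_eq_prime (by rw [sq]; exact h2 x hx) hx1)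
    have := Subgroup.Normal.conj_mem (inferInstance : N.Normal) _ hinvN c⁻¹
    rwa [← hc, show c⁻¹ * (c * x * c⁻¹) * c⁻¹⁻¹ = x by group] at this
  have hC : Subgroup.centralizer ((S : Subgroup ↥G¹) : Set ↥G¹) = S := by
    refine centralizer_sylow_two_of hK S fun c hc ⟨p, hp, h5, hpd⟩ => ?_
    haveI : Nontrivial ↥(S : Subgroup ↥G¹) := Finite.one_lt_card_iff_nontrivial.mp (by
      rw [show Nat.card ↥(S : Subgroup ↥G¹) = 8 from h8]; norm_num)
    obtain ⟨a, ha⟩ := exists_ne (1 : ↥(S : Subgroup ↥G¹))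
    obtain ⟨e, he⟩ := exists_conj_invE hK (g := (a : ↥G¹))
      (orderOf_eq_prime (by rw [sq]; exact h2 _ a.2) fun h => ha (Subtype.ext h))
    have hmem : e * c * e⁻¹ ∈ Subgroup.centralizer ({invE} : Set ↥G¹) := by
      rw [Subgroup.mem_centralizer_singleton_iff, ← he,
        show e * c * e⁻¹ * (e * (a : ↥G¹) * e⁻¹) = e * (c * a) * e⁻¹ by group,
        ← Subgroup.mem_centralizer_iff.mp hc a a.2]
      group
    have hdv := Subgroup.orderOf_dvd_natCard _ hmem
    rw [orderOf_conj_eq, card_centralizer_invE hK] at hdv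
    have h24 : p ∣ 2 ^ 3 * 3 := by
      refine dvd_trans hpd (hdv.trans (dvd_of_eq ?_))
      norm_num
    rcases (Nat.Prime.dvd_mul hp).mp h24 with h | h
    · have := Nat.le_of_dvd (by norm_num) (hp.dvd_of_dvd_pow h); omega
    · have := Nat.le_of_dvd (by norm_num) h; omega
  have h168 := card_normalizer_sylow_two_of hK S hC
  have h9 : 9 ∣ Nat.card ↥N := by
    have hfr := Sylow.normalizer_sup_eq_top' S hSN
    have hd := index_dvd_card_of_sup_eq_top
      (show Subgroup.normalizer ((S : Subgroup ↥G¹) : Set ↥G¹) ⊔ N = ⊤ from hfr)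
    have e := (Subgroup.normalizer ((S : Subgroup ↥G¹) : Set ↥G¹)).card_mul_index
    rw [h168, card_G_three hK] at e
    rwa [show (Subgroup.normalizer ((S : Subgroup ↥G¹) : Set ↥G¹)).index = 9 by omega] at hd
  have h8N : 8 ∣ Nat.card ↥N := h8 ▸ Subgroup.card_dvd_of_le hSN
  omega

theorem card_commutator_three : Nat.card ↥(commutator ↥G¹) = 504 := by
  haveI := twisted_nontrivial hK
  have hne : commutator ↥G¹ ≠ ⊥ := by
    intro h
    haveI : Fact (Nat.Prime 3) := ⟨Nat.prime_three⟩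
    obtain ⟨S, hS⟩ := exists_uSylow (m := 0) hK
    have hc : ∀ a b : ↥G¹, a * b = b * a := fun a b => by
      have := Subgroup.commutator_mem_commutator (Subgroup.mem_top a) (Subgroup.mem_top b)
      rw [← _root_.commutator_def, h, Subgroup.mem_bot, commutatorElement_eq_one_iff_mul_comm] at this
      exact this
    have := invE_conj_elNine (K := K)
    rw [hc (invE : ↥G¹) elNine, mul_assoc, invE_mul_self, mul_one] at this
    have h2 : (elNine : ↥G¹) ^ 2 = 1 := by
      rw [sq]; nth_rw 1 [this]; exact inv_mul_cancel _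
    have := orderOf_dvd_of_pow_eq_one h2
    rw [orderOf_elNine hK] at this
    norm_num at this
  obtain ⟨j, hj⟩ := dvd_card_of_normal hK hne
  have hd := Subgroup.card_subgroup_dvd_card (commutator ↥G¹)
  rw [card_G_three hK, hj, show (1512 : ℕ) = 504 * 3 from rfl] at hd
  rcases (Nat.dvd_prime Nat.prime_three).mp (Nat.dvd_of_mul_dvd_mul_left (by norm_num) hd) with h | h
  · rw [hj, h]
  · exact absurd (Subgroup.eq_top_of_card_eq _ (by rw [hj, h, card_G_three hK]))
      (commutator_three_ne_top hK)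

theorem commutator_three_simple : IsSimpleGroup ↥(commutator ↥G¹) := by
  classical
  haveI : Fact (Nat.Prime 7) := ⟨by norm_num⟩
  set D := commutator ↥G¹ with hD
  have hD504 := card_commutator_three hK
  have hDc : Nat.card ↥D = 504 := hD504
  haveI : Nontrivial ↥D := Finite.one_lt_card_iff_nontrivial.mp (by rw [hD, hD504]; norm_num)
  -- a normal subgroup of `D` of order prime to seven is trivial
  have hsmall : ∀ M : Subgroup ↥D, M.Normal → ¬ 7 ∣ Nat.card ↥M → M = ⊥ := by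
    intro M hMn hM7
    let X := {L : Subgroup ↥D | L.Normal ∧ ¬ 7 ∣ Nat.card ↥L}
    obtain ⟨L, hL, hmax⟩ := Set.exists_max_image X (fun L => Nat.card ↥L) (Set.toFinite X) ⟨M, hMn, hM7⟩
    have hsup : ∀ L' ∈ X, L' ≤ L := by
      rintro L' ⟨hL'n, hL'7⟩
      haveI := hL.1; haveI := hL'n
      have hX : L ⊔ L' ∈ X := ⟨inferInstance, fun h7 => ?_⟩
      · have hcard := hmax _ hX
        have := Subgroup.eq_of_le_of_card_ge (le_sup_left : L ≤ L ⊔ L') hcard
        exact this ▸ le_sup_right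
      · have hmul : Nat.card ↥(L ⊔ L') ∣ Nat.card ↥L * Nat.card ↥L' := by
          have hsub : L.relIndex (L ⊔ L') ∣ Nat.card ↥L' := by
            rw [Subgroup.relIndex_sup_left]
            exact Subgroup.index_dvd_card _
          rw [← (L.subgroupOf (L ⊔ L')).card_mul_index,
            Nat.card_congr (Subgroup.subgroupOfEquivOfLe le_sup_left).toEquiv]
          exact mul_dvd_mul_left _ hsub
        rcases (Nat.Prime.dvd_mul (Fact.out : Nat.Prime 7)).mp (h7.trans hmul) with h | h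
        · exact hL.2 h
        · exact hL'7 h
    have hinv : (L.map D.subtype).Normal := by
      refine ⟨?_⟩
      rintro _ ⟨y, hy, rfl⟩ g
      have hX : L.map (MulAut.conjNormal g : MulAut ↥D).toMonoidHom ∈ X :=
        ⟨hL.1.map _ (MulEquiv.surjective _), by
          rw [Subgroup.card_map_of_injective (f := (MulAut.conjNormal g : MulAut ↥D).toMonoidHom)
            (MulEquiv.injective _)]
          exact hL.2⟩
      exact ⟨MulAut.conjNormal g y, hsup _ hX ⟨y, hy, rfl⟩, MulAut.conjNormal_apply _ _⟩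
    have hLbot : L = ⊥ := by
      by_contra hne
      haveI := hinv
      have := dvd_card_of_normal hK (N := L.map D.subtype) fun h =>
        hne ((Subgroup.map_eq_bot_iff_of_injective _ D.subtype_injective).mp h)
      rw [Subgroup.card_map_of_injective D.subtype_injective] at this
      exact hL.2 (dvd_trans (by norm_num) this)
    exact le_bot_iff.mp (hLbot ▸ hsup M ⟨hMn, hM7⟩)
  refine ⟨fun M hMn => ?_⟩
  by_cases h7 : 7 ∣ Nat.card ↥M
  swap
  · exact Or.inl (hsmall M hMn h7)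
  right
  -- `M` contains every element of order seven
  have hall : ∀ g : ↥D, g ^ 7 = 1 → g ∈ M := by
    intro g hg
    obtain ⟨P, hP⟩ := (IsPGroup.iff_orderOf.mpr fun x : ↥(Subgroup.zpowers g) => by
      have hx : x ^ 7 = 1 := Subtype.ext (by
        obtain ⟨k, hk⟩ := Subgroup.mem_zpowers_iff.mp x.2
        rw [Subgroup.coe_pow, ← hk, ← zpow_natCast, ← zpow_mul, mul_comm, zpow_mul, zpow_natCast, hg, one_zpow]
        rfl)
      rcases (Nat.dvd_prime (Fact.out : Nat.Prime 7)).mp (orderOf_dvd_of_pow_eq_one hx) with h | h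
      · exact ⟨0, h⟩
      · exact ⟨1, by rw [h, pow_one]⟩ : IsPGroup 7 ↥(Subgroup.zpowers g)).exists_le_sylow
    have hP7 : Nat.card ↥(P : Subgroup ↥D) = 7 := by
      rw [Sylow.card_eq_multiplicity, hD, hD504, show (504 : ℕ) = 7 ^ 1 * 72 from rfl,
        Nat.factorization_mul (by norm_num) (by norm_num), Nat.Prime.factorization_pow Fact.out,
        Finsupp.add_apply, Finsupp.single_eq_same, Nat.factorization_eq_zero_of_not_dvd (by norm_num),
        pow_one]
    obtain ⟨y, hy⟩ := exists_prime_orderOf_dvd_card' (G := ↥M) 7 h7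
    obtain ⟨P', hP'⟩ := (IsPGroup.iff_orderOf.mpr fun x : ↥(Subgroup.zpowers (y : ↥D)) => by
      have hd := orderOf_dvd_natCard x
      rw [Nat.card_zpowers, Subgroup.orderOf_coe, hy] at hd
      rcases (Nat.dvd_prime (Fact.out : Nat.Prime 7)).mp hd with h | h
      · exact ⟨0, h⟩
      · exact ⟨1, by rw [h, pow_one]⟩ : IsPGroup 7 ↥(Subgroup.zpowers (y : ↥D))).exists_le_sylow
    have hP'M : (P' : Subgroup ↥D) ≤ M := by
      have he : Subgroup.zpowers (y : ↥D) = P' := by
        refine Subgroup.eq_of_le_of_card_ge hP' ?_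
        rw [Nat.card_zpowers, Subgroup.orderOf_coe, hy, P'.card_eq_multiplicity, ← P.card_eq_multiplicity, hP7]
      exact he ▸ Subgroup.zpowers_le.mpr y.2
    obtain ⟨c, hc⟩ := MulAction.exists_smul_eq ↥D P' P
    have hg' : g ∈ ((c • P' : Sylow 7 ↥D) : Subgroup ↥D) := hc.symm ▸ hP (Subgroup.mem_zpowers g)
    rw [Sylow.coe_subgroup_smul] at hg'
    obtain ⟨w, hw, rfl⟩ := hg'
    exact hMn.conj_mem w (hP'M hw) c
  set W : Subgroup ↥G¹ := Subgroup.closure {g | g ^ 7 = 1} with hW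
  have hWn : W.Normal := ⟨fun n hn g => closure_conj_mem (A := {g | g ^ 7 = 1}) (fun y hy =>
    Subgroup.subset_closure (by
      show (g * y * g⁻¹) ^ 7 = 1
      rw [conj_pow, show y ^ 7 = 1 from hy, mul_one, mul_inv_cancel])) hn⟩
  have hWne : W ≠ ⊥ := fun h => by
    obtain ⟨g, hg⟩ := exists_prime_orderOf_dvd_card' (G := ↥G¹) 7 (by rw [card_G_three hK]; norm_num)
    have : g ∈ W := Subgroup.subset_closure (show g ^ 7 = 1 by rw [← hg, pow_orderOf_eq_one])
    rw [h, Subgroup.mem_bot] at this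
    rw [this, orderOf_one] at hg
    norm_num at hg
  have hWM : W ≤ M.map D.subtype := by
    refine (Subgroup.closure_le _).mpr fun g hg => ?_
    have hgD : g ∈ D := by
      have hidx : D.index = 3 := by
        have e := D.card_mul_index
        rw [hDc, card_G_three hK] at e
        omega
      have h3 : g ^ 3 ∈ D := hidx ▸ Subgroup.pow_index_mem D g
      have he : g = (g ^ 3) ^ 5 * ((g ^ 7) ^ 2)⁻¹ := by
        rw [← pow_mul, ← pow_mul]; group
      rw [he, show g ^ 7 = 1 from hg, one_pow, inv_one, mul_one]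
      exact pow_mem h3 5
    exact ⟨⟨g, hgD⟩, hall _ (Subtype.ext hg), rfl⟩
  have hle := Subgroup.card_le_of_le hWM
  haveI := hWn
  obtain ⟨j, hj⟩ := dvd_card_of_normal hK hWne
  rw [Subgroup.card_map_of_injective D.subtype_injective, hj] at hle
  have hpos : 0 < j := Nat.pos_of_ne_zero fun h => Nat.card_pos.ne' (by rw [hj, h, mul_zero])
  refine Subgroup.eq_top_of_card_eq _ (le_antisymm (Subgroup.card_le_card_group M) ?_)
  rw [hDc]
  omega

theorem commutator_three_iso {L : Type*} [Field L] [Fintype L] (hL : Fintype.card L = 8) :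
    Nonempty (↥(commutator ↥G¹) ≃* Matrix.ProjectiveSpecialLinearGroup (Fin 2) L) := by
  haveI := commutator_three_simple hK
  exact CfsgLib.PSLSmall.mulEquiv_psl_504 (card_commutator_three hK) hL

end CfsgLib.Ree
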